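import Mathlib

set_option autoImplicit false

/-!
# Counting the fixed points of a semilinear involution
-/

namespace Cfsg.Agent.Lib.Helper38.Descent

theorem card_fix_sq {K W : Type*} [Field K] [AddCommGroup W] [Module K W] (σ : K →+* K)
    (hσσ : ∀ x, σ (σ x) = x) (u : K) (hu : σ u ≠ u) (τ : W →+ W)
    (hsmul : ∀ (c : K) (a : W), τ (c • a) = σ c • τ a) (hττ : ∀ a, τ (τ a) = a) :
    Nat.card W = Nat.card {a : W // τ a = a} ^ 2 := by
  have hne : u - σ u ≠ 0 := fun h => hu (sub_eq_zero.1 h).symm
  have hbij : Function.Bijective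
      (fun x : {a : W // τ a = a} × {a : W // τ a = a} => x.1.1 + u • x.2.1) := by
    constructor
    · rintro ⟨⟨x, hx⟩, ⟨y, hy⟩⟩ ⟨⟨x', hx'⟩, ⟨y', hy'⟩⟩ h
      simp only at h
      have h2 := congrArg τ h
      rw [map_add, map_add, hsmul, hsmul, hx, hy, hx', hy'] at h2
      have h3 : (u - σ u) • y = (u - σ u) • y' := by
        rw [sub_smul, sub_smul]
        have e1 : u • y - σ u • y = (x + u • y) - (x + σ u • y) := by abel
        rw [e1, h, h2]
        abel
      have h4 : y = y' := smul_right_injective W hne h3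
      subst h4
      have h5 : x = x' := add_right_cancel h
      subst h5
      rfl
    · intro b
      set c := (u - σ u)⁻¹ with hc
      have hσc : σ c = -c := by
        rw [hc, map_inv₀, map_sub, hσσ, ← neg_sub, inv_neg]
      have hy : τ (c • (b - τ b)) = c • (b - τ b) := by
        rw [hsmul, map_sub, hττ, hσc, neg_smul, ← smul_neg, neg_sub]
      have hcu : (u - σ u) • (c • (b - τ b)) = b - τ b := by
        rw [smul_smul, hc, mul_inv_cancel₀ hne, one_smul]
      have hx : τ (b - u • (c • (b - τ b))) = b - u • (c • (b - τ b)) := by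
        rw [map_sub, hsmul, hy]
        rw [sub_smul] at hcu
        generalize c • (b - τ b) = y at hcu
        have e1 : τ b - σ u • y - (b - u • y) = (u • y - σ u • y) - (b - τ b) := by abel
        rw [hcu, sub_self] at e1
        exact sub_eq_zero.1 e1
      refine ⟨(⟨_, hx⟩, ⟨_, hy⟩), ?_⟩
      simp
  rw [sq, ← Nat.card_prod]
  exact (Nat.card_congr (Equiv.ofBijective _ hbij)).symm

/-- the twisted reversal on coefficient vectors -/
def tw {K : Type*} [Field K] (σ : K →+* K) (ε : K) (m : ℕ) : (Fin m → K) →+ (Fin m → K) where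
  toFun b := fun j => ε * σ (b (Fin.rev j))
  map_zero' := by funext j; simp
  map_add' a b := by funext j; simp [mul_add]

theorem tw_apply {K : Type*} [Field K] (σ : K →+* K) (ε : K) (m : ℕ) (b : Fin m → K) (j : Fin m) :
    tw σ ε m b j = ε * σ (b (Fin.rev j)) := rfl

theorem card_fix_tw {K : Type*} [Field K] [Fintype K] {q : ℕ} (hK : Fintype.card K = q ^ 2)
    (σ : K →+* K) (hσσ : ∀ x, σ (σ x) = x) (u : K) (hu : σ u ≠ u) (ε : K) (hε : σ ε = ε)
    (hεε : ε * ε = 1) (m : ℕ) :
    Nat.card {b : Fin m → K // tw σ ε m b = b} = q ^ m := by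
  have h1 := card_fix_sq σ hσσ u hu (tw σ ε m)
    (by
      intro c a
      funext j
      simp only [tw_apply, Pi.smul_apply, smul_eq_mul, map_mul]
      ring)
    (by
      intro a
      funext j
      simp only [tw_apply, map_mul, hε, hσσ, Fin.rev_rev]
      rw [← mul_assoc, hεε, one_mul])
  rw [Nat.card_eq_fintype_card, Fintype.card_fun, hK, Fintype.card_fin, ← pow_mul, mul_comm 2 m,
    pow_mul] at h1
  exact (Nat.pow_left_injective (n := 2) (by norm_num) h1).symm

end Cfsg.Agent.Lib.Helper38.Descent
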