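import Cfsg.Agent.Lib.Helper43.PU.FieldCentU
import Cfsg.Agent.Lib.Helper1.Tools

set_option autoImplicit false
set_option linter.unusedSectionVars false

namespace Cfsg.Agent.Lib.Helper38.GUFix

open Matrix Cfsg.Agent.Lib.Helper43.PA Cfsg.Agent.Lib.Helper43.PU Cfsg.Agent.Lib.Helper13
  Cfsg.Agent.Lib.Helper5

variable {F : Type*} [Field F] [Fintype F] {q n : ℕ}

lemma pow_of_scGL_mem (hn : 1 ≤ n) {u : Fˣ} (h : (scGL u : GL (Fin n) F) ∈ Cfsg.GU n F q) :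
    u ^ (q + 1) = 1 := by
  rw [mem_GU_iff] at h
  have := h (Pi.single ⟨0, by omega⟩ 1) (Pi.single ⟨0, by omega⟩ 1)
  rw [scGL_mulVec, hermForm_smul_left, hermForm_smul_right] at this
  have h1 : Cfsg.hermForm n F q (Pi.single ⟨0, by omega⟩ 1) (Pi.single ⟨0, by omega⟩ 1) = 1 := by
    unfold Cfsg.hermForm
    rw [Finset.sum_eq_single ⟨0, by omega⟩]
    · simp
    · intro b _ hb
      simp [Pi.single_eq_of_ne hb]
    · simp
  rw [h1] at this
  apply Units.ext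
  rw [Units.val_pow_eq_pow_val, pow_succ']
  simpa using this

/-- the elements of `GU_n` whose image under `σ` is a scalar multiple -/
noncomputable def T (σ : F ≃+* F) : Subgroup ↥(Cfsg.GU n F q) where
  carrier := {g | ∃ u : Fˣ, mapGL σ g.1 = scGL u * g.1}
  one_mem' := ⟨1, by simp⟩
  mul_mem' := by
    rintro a b ⟨u, hu⟩ ⟨v, hv⟩
    refine ⟨u * v, ?_⟩
    show mapGL σ (a.1 * b.1) = scGL (u * v) * (a.1 * b.1)
    rw [map_mul, hu, hv, map_mul, mul_assoc, ← mul_assoc a.1, ← scGL_comm v a.1]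
    simp only [mul_assoc]
  inv_mem' := by
    rintro a ⟨u, hu⟩
    refine ⟨u⁻¹, ?_⟩
    show mapGL σ (a.1)⁻¹ = scGL u⁻¹ * (a.1)⁻¹
    rw [map_inv, hu, _root_.mul_inv_rev, ← map_inv, scGL_comm]

lemma mem_T {σ : F ≃+* F} {g : ↥(Cfsg.GU n F q)} :
    g ∈ T σ ↔ ∃ u : Fˣ, mapGL σ g.1 = scGL u * g.1 := Iff.rfl

lemma mem_T_iff (σ : F ≃+* F) (g : ↥(Cfsg.GU n F q)) :
    g ∈ T σ ↔ ∃ c : F, c ≠ 0 ∧ ((g : GL (Fin n) F) : Matrix (Fin n) (Fin n) F).map σ =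
      c • ((g : GL (Fin n) F) : Matrix (Fin n) (Fin n) F) := by
  rw [mem_T]
  constructor
  · rintro ⟨u, hu⟩
    refine ⟨u, u.ne_zero, ?_⟩
    have := congrArg Units.val hu
    rw [mapGL_coe, Units.val_mul, scGL_coe] at this
    rw [this, Matrix.scalar_apply, ← Matrix.smul_eq_diagonal_mul]
  · rintro ⟨c, hc, h⟩
    refine ⟨Units.mk0 c hc, ?_⟩
    apply Units.ext
    rw [mapGL_coe, Units.val_mul, scGL_coe, h, Matrix.scalar_apply, ← Matrix.smul_eq_diagonal_mul]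
    rfl

/-- scalars -/
noncomputable def scHom : ↥(U1 F q) →* ↥(Cfsg.GU n F q) where
  toFun v := ⟨scGL v.1, scGL_mem_GU (mem_U1.1 v.2)⟩
  map_one' := Subtype.ext (map_one _)
  map_mul' a b := Subtype.ext (map_mul _ _ _)

lemma scHom_injective (hn : 1 ≤ n) : Function.Injective (scHom : ↥(U1 F q) →* ↥(Cfsg.GU n F q)) := by
  intro a b h
  exact Subtype.ext (scGL_injective (n := n) hn (congrArg Subtype.val h))

section

variable {p f : ℕ} [hp : Fact p.Prime] (hq : q = p ^ f) (hf : 1 ≤ f) (hF : Fintype.card F = q ^ 2)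
  (σ : F ≃+* F) (hodd : Odd (orderOf σ))
  {F₀ : Type*} [Field F₀] [Fintype F₀] {q₀ : ℕ}
  (hF₀ : Fintype.card F₀ = q₀ ^ 2) (ι : F₀ →+* F) (hpow : ∀ y : F₀, y ^ q = y ^ q₀)
  (hι : ∀ x, σ x = x ↔ ∃ y, ι y = x)

include hq hf hF hodd in
lemma exists_fix (hn : 1 ≤ n) {g : ↥(Cfsg.GU n F q)} (hg : g ∈ T σ) :
    ∃ v : Fˣ, v * uM (barE hF) v = 1 ∧ mapGL σ (scGL v * g.1) = scGL v * g.1 := by
  obtain ⟨u, hu'⟩ := hg
  have hmem : (scGL u : GL (Fin n) F) ∈ Cfsg.GU n F q := by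
    have : scGL u = (mapGU σ g * g⁻¹).1 := by
      show _ = mapGL σ g.1 * g.1⁻¹
      rw [hu', mul_inv_cancel_right]
    rw [this]
    exact (mapGU σ g * g⁻¹).2
  have hu1 := norm_of_pow_succ hF (pow_of_scGL_mem hn hmem)
  have h1 := mapGL_pow_of_scalar σ hu' (orderOf σ)
  rw [pow_orderOf_eq_one, mapGL_one'] at h1
  have h2 : nU σ u (orderOf σ) = 1 := by
    apply scGL_injective (n := n) hn
    rw [map_one]
    exact mul_eq_right.1 h1.symm
  obtain ⟨v, hv1, hv⟩ := h90_U1 hq hf hF σ hodd u hu1 h2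
  refine ⟨v, hv1, ?_⟩
  rw [map_mul, mapGL_scGL, hu', ← mul_assoc, ← map_mul, hv, mul_comm, inv_mul_cancel_right]

include hq hf hF hodd hF₀ hpow hι

theorem T_eq_sup (hn : 1 ≤ n) :
    (T σ : Subgroup ↥(Cfsg.GU n F q)) =
      (mapIota hF hF₀ ι hpow).range ⊔ (scHom : ↥(U1 F q) →* ↥(Cfsg.GU n F q)).range := by
  apply le_antisymm
  · intro g hg
    obtain ⟨v, hv1, hv⟩ := exists_fix hq hf hF σ hodd hn hg
    obtain ⟨g₀, hg₀⟩ := (exists_map_eq ι σ hι _).1 hv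
    have hmem : g₀ ∈ Cfsg.GU n F₀ q₀ := by
      rw [← map_mem_GU_iff hF hF₀ ι hpow, hg₀]
      exact (scGU hF v hv1 * g).2
    have e : mapIota hF hF₀ ι hpow ⟨g₀, hmem⟩ = scGU hF v hv1 * g := Subtype.ext hg₀
    have e2 : g = mapIota hF hF₀ ι hpow ⟨g₀, hmem⟩ *
        (scHom ⟨v, mem_U1.2 (pow_succ_of_norm hF hv1)⟩)⁻¹ := by
      rw [e]
      apply Subtype.ext
      show g.1 = scGL v * g.1 * (scGL v)⁻¹
      rw [scGL_comm, mul_inv_cancel_right]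
    rw [e2]
    exact Subgroup.mul_mem _ (Subgroup.mem_sup_left ⟨_, rfl⟩)
      (Subgroup.inv_mem _ (Subgroup.mem_sup_right ⟨_, rfl⟩))
  · rw [sup_le_iff]
    constructor
    · rintro _ ⟨g₀, rfl⟩
      refine ⟨1, ?_⟩
      rw [map_one, one_mul]
      exact (exists_map_eq ι σ hι _).2 ⟨g₀.1, rfl⟩
    · rintro _ ⟨v, rfl⟩
      refine ⟨uM σ v.1 * v.1⁻¹, ?_⟩
      show mapGL σ (scGL v.1) = scGL (uM σ v.1 * v.1⁻¹) * scGL v.1
      rw [mapGL_scGL, ← map_mul, inv_mul_cancel_right]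

theorem inf_eq_map (hn : 1 ≤ n) :
    (mapIota hF hF₀ ι hpow).range ⊓ (scHom : ↥(U1 F q) →* ↥(Cfsg.GU n F q)).range =
      ((fixU σ).subgroupOf (U1 F q)).map scHom := by
  ext g
  constructor
  · rintro ⟨⟨g₀, hg₀⟩, ⟨v, rfl⟩⟩
    refine ⟨v, ?_, rfl⟩
    rw [SetLike.mem_coe, Subgroup.mem_subgroupOf, mem_fixU]
    apply scGL_injective (n := n) hn
    rw [← mapGL_scGL]
    exact (exists_map_eq ι σ hι _).2 ⟨g₀.1, congrArg Subtype.val hg₀⟩
  · rintro ⟨v, hv, rfl⟩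
    rw [SetLike.mem_coe, Subgroup.mem_subgroupOf, mem_fixU] at hv
    refine ⟨?_, ⟨v, rfl⟩⟩
    have h1 : mapGL σ (scGL v.1 : GL (Fin n) F) = scGL v.1 := by rw [mapGL_scGL, hv]
    obtain ⟨g₀, hg₀⟩ := (exists_map_eq ι σ hι _).1 h1
    have hmem : g₀ ∈ Cfsg.GU n F₀ q₀ := by
      rw [← map_mem_GU_iff hF hF₀ ι hpow, hg₀]
      exact (scHom v : ↥(Cfsg.GU n F q)).2
    exact ⟨⟨g₀, hmem⟩, Subtype.ext hg₀⟩

theorem card_T (hn : 1 ≤ n) :
    Nat.card (T σ : Subgroup ↥(Cfsg.GU n F q)) * (q₀ + 1) =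
      Nat.card ↥(Cfsg.GU n F₀ q₀) * (q + 1) := by
  have hnorm : (mapIota hF hF₀ ι hpow).range ≤ Subgroup.normalizer
      (((scHom : ↥(U1 F q) →* ↥(Cfsg.GU n F q)).range : Subgroup _) : Set ↥(Cfsg.GU n F q)) := by
    intro g _
    rw [Subgroup.mem_normalizer_iff]
    intro h
    have key : ∀ v : ↥(U1 F q), g * scHom v * g⁻¹ = scHom v := by
      intro v
      apply Subtype.ext
      show g.1 * scGL v.1 * g.1⁻¹ = scGL v.1
      rw [← scGL_comm, mul_inv_cancel_right]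
    constructor
    · rintro ⟨v, rfl⟩
      exact ⟨v, (key v).symm⟩
    · rintro ⟨v, hv⟩
      refine ⟨v, ?_⟩
      have : h = g⁻¹ * (g * h * g⁻¹) * g := by group
      rw [this, ← hv]
      have := key v
      calc scHom v = g⁻¹ * (g * scHom v * g⁻¹) * g := by group
        _ = g⁻¹ * scHom v * g := by rw [this]
  have h1 := Cfsg.Agent.Lib.Helper1.card_sup_mul_card_inf hnorm
  rw [← T_eq_sup hq hf hF σ hodd hF₀ ι hpow hι hn, inf_eq_map hq hf hF σ hodd hF₀ ι hpow hι hn] at h1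
  have h2 : Nat.card (((fixU σ).subgroupOf (U1 F q)).map
      (scHom : ↥(U1 F q) →* ↥(Cfsg.GU n F q))) = q₀ + 1 := by
    rw [Subgroup.card_map_of_injective (scHom_injective hn), card_fixA hF σ hF₀ ι hpow hι]
  have h3 : Nat.card (scHom : ↥(U1 F q) →* ↥(Cfsg.GU n F q)).range = q + 1 := by
    rw [← card_U1 hF]
    exact (Nat.card_congr (MonoidHom.ofInjective (scHom_injective hn)).toEquiv).symm
  have hinj : Function.Injective (mapIota (n := n) hF hF₀ ι hpow) := by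
    intro a b hab
    apply Subtype.ext
    apply Units.ext
    have := congrArg (fun g : ↥(Cfsg.GU n F q) => g.1.1) hab
    exact Matrix.map_injective ι.injective this
  have h4 : Nat.card (mapIota (n := n) hF hF₀ ι hpow).range = Nat.card ↥(Cfsg.GU n F₀ q₀) :=
    (Nat.card_congr (MonoidHom.ofInjective hinj).toEquiv).symm
  rw [h2, h3, h4] at h1
  exact h1

end

end Cfsg.Agent.Lib.Helper38.GUFix
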