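import Mathlib
import Cfsg.Agent.Lib.Helper38.OrderRTypes2

set_option autoImplicit false

/-! The twisted reciprocal map `P ↦ (P^σ)^*` on the irreducible factors of `X ^ r - 1`
over the field with `q ^ 2` elements. -/

namespace Cfsg.Agent.Lib.Helper38.CycF

open Polynomial

variable {K : Type*} [Field K]

theorem map_map_self (σ : K →+* K) (hσσ : ∀ x, σ (σ x) = x) (P : K[X]) :
    (P.map σ).map σ = P := by
  rw [Polynomial.map_map]
  have : σ.comp σ = RingHom.id K := RingHom.ext hσσ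
  rw [this, Polynomial.map_id]

theorem irreducible_map_self (σ : K →+* K) (hσσ : ∀ x, σ (σ x) = x) {P : K[X]}
    (hP : Irreducible P) : Irreducible (P.map σ) := by
  have key : ∀ a : K[X], IsUnit (a.map σ) → IsUnit a := by
    intro a ha
    have := ha.map (mapRingHom σ)
    rwa [coe_mapRingHom, map_map_self σ hσσ] at this
  constructor
  · intro hu
    exact hP.not_isUnit (key P hu)
  · intro a b hab
    have h1 : P = a.map σ * b.map σ := by
      rw [← Polynomial.map_mul, ← hab, map_map_self σ hσσ]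
    rcases hP.isUnit_or_isUnit h1 with h | h
    · exact Or.inl (key a h)
    · exact Or.inr (key b h)

theorem map_mem (σ : K →+* K) (hσσ : ∀ x, σ (σ x) = x) {r : ℕ} {P : K[X]}
    (hP : P ∈ facs K r) : P.map σ ∈ facs K r := by
  obtain ⟨h1, h2, h3⟩ := mem_facs_iff.1 hP
  refine mem_facs_iff.2 ⟨irreducible_map_self σ hσσ h1, h2.map σ, ?_⟩
  have := Polynomial.map_dvd σ h3
  rwa [map_cyclotomic] at this

theorem reverse_map' (σ : K →+* K) (P : K[X]) : (P.map σ).reverse = P.reverse.map σ := by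
  rw [reverse, reverse, natDegree_map, reflect_map]

theorem starP_map (σ : K →+* K) (P : K[X]) : starP (P.map σ) = (starP P).map σ := by
  rw [starP, starP, Polynomial.map_mul, map_C, coeff_map, reverse_map', map_inv₀ σ]

/-- the Galois twist on the factors. -/
noncomputable def sigI (σ : K →+* K) (hσσ : ∀ x, σ (σ x) = x) {r : ℕ} (P : ↥(facs K r)) :
    ↥(facs K r) := ⟨P.1.map σ, map_mem σ hσσ P.2⟩

/-- the twisted reciprocal map on the factors. -/
noncomputable def starS (p : ℕ) [hp : Fact p.Prime] [CharP K p] {r : ℕ} (hr : r.Prime)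
    (hrp : r ≠ p) (σ : K →+* K) (hσσ : ∀ x, σ (σ x) = x) (P : ↥(facs K r)) : ↥(facs K r) :=
  starI p hr hrp (sigI σ hσσ P)

theorem starS_starS (p : ℕ) [hp : Fact p.Prime] [CharP K p] {r : ℕ} (hr : r.Prime)
    (hrp : r ≠ p) (σ : K →+* K) (hσσ : ∀ x, σ (σ x) = x) (P : ↥(facs K r)) :
    starS p hr hrp σ hσσ (starS p hr hrp σ hσσ P) = P := by
  apply Subtype.ext
  show starP ((starP (P.1.map σ)).map σ) = P.1
  rw [← starP_map, map_map_self σ hσσ]
  exact starP_starP (mem_facs_iff.1 P.2).2.1 (coeff_zero_ne_zero_of_mem hr P.2)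

theorem f0_map_sigI (σ : K →+* K) (hσσ : ∀ x, σ (σ x) = x) {r : ℕ}
    (m : Multiset ↥(facs K r)) : f0 (m.map (sigI σ hσσ)) = (f0 m).map σ := by
  induction m using Multiset.induction_on with
  | empty => simp [f0_zero]
  | cons P m ih =>
    rw [Multiset.map_cons, f0_cons, f0_cons, Polynomial.map_mul, ih]
    rfl

theorem reverse_map_f0 (p : ℕ) [hp : Fact p.Prime] [CharP K p] {r : ℕ} (hr : r.Prime)
    (hrp : r ≠ p) (σ : K →+* K) (hσσ : ∀ x, σ (σ x) = x) (m : Multiset ↥(facs K r)) (k : ℕ) :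
    ∃ c : K, ((f0 m * (X - 1) ^ k).map σ).reverse =
      C c * (f0 (m.map (starS p hr hrp σ hσσ)) * (X - 1) ^ k) := by
  obtain ⟨c, hc⟩ := reverse_f0 p hr hrp (m.map (sigI σ hσσ))
  refine ⟨c * (-1) ^ k, ?_⟩
  have h1 : (f0 m * (X - 1) ^ k).map σ = f0 (m.map (sigI σ hσσ)) * (X - 1) ^ k := by
    rw [f0_map_sigI]
    simp
  rw [h1, reverse_mul_of_domain, hc, reverse_X_sub_one_pow, Multiset.map_map, C_mul]
  show _ = C c * C ((-1) ^ k) * (f0 (m.map (starI p hr hrp ∘ sigI σ hσσ)) * _)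
  ring

theorem aeval_pow_map (p : ℕ) [hp : Fact p.Prime] [CharP K p] {q k : ℕ} (hq : q = p ^ k)
    (σ : K →+* K) (hσ : ∀ x, σ x = x ^ q) {L : Type*} [CommRing L] [Algebra K L] (P : K[X])
    (x : L) : aeval (x ^ q) (P.map σ) = (aeval x P) ^ q := by
  have h1 : σ = iterateFrobenius K p k := by
    ext y
    rw [hσ, iterateFrobenius_def, hq]
  have h2 := map_iterateFrobenius_expand (R := K) p P k
  rw [← h1, ← hq, map_expand] at h2
  rw [← map_pow, ← h2, expand_aeval]

end Cfsg.Agent.Lib.Helper38.CycF
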