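import Mathlib
import Cfsg.Agent.Lib.Helper38.StarSigma

set_option autoImplicit false

/-! Fixed points of the twisted reciprocal map. -/

namespace Cfsg.Agent.Lib.Helper38.CycF

open Polynomial

theorem orderOf_sq_cast {r q : ℕ} :
    orderOf (((q ^ 2 : ℕ)) : ZMod r) =
      if Odd (orderOf (q : ZMod r)) then orderOf (q : ZMod r) else orderOf (q : ZMod r) / 2 := by
  push_cast
  rw [orderOf_pow' _ two_ne_zero]
  split_ifs with h
  · rw [Nat.coprime_two_right.2 h, Nat.div_one]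
  · have h2 : 2 ∣ orderOf (q : ZMod r) := (Nat.not_odd_iff_even.1 h).two_dvd
    rw [Nat.gcd_eq_right h2]

theorem lt_orderOf_neg {r q : ℕ} (hr : r.Prime) (hr2 : r ≠ 2) (hrq : ¬ r ∣ q)
    (hi : orderOf (q : ZMod r) % 4 ≠ 2) :
    (if Odd (orderOf (q : ZMod r)) then orderOf (q : ZMod r) else orderOf (q : ZMod r) / 2) <
      orderOf ((((r - 1) * q : ℕ)) : ZMod r) := by
  have : Fact r.Prime := ⟨hr⟩
  have hu : ((((r - 1) * q : ℕ)) : ZMod r) = -(q : ZMod r) := by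
    rw [Nat.cast_mul, Nat.cast_sub hr.one_lt.le]
    simp
  rw [hu]
  set Q := (q : ZMod r) with hQ
  have hQ0 : Q ≠ 0 := by rwa [hQ, Ne, ZMod.natCast_eq_zero_iff]
  set i := orderOf Q with hidef
  set e := orderOf (-Q) with hedef
  have he0 : 0 < e := by
    rw [hedef, orderOf_pos_iff, isOfFinOrder_iff_pow_eq_one]
    exact ⟨r - 1, Nat.sub_pos_of_lt hr.one_lt, ZMod.pow_card_sub_one_eq_one (neg_ne_zero.2 hQ0)⟩
  have h1 : (-Q) ^ e = 1 := pow_orderOf_eq_one _
  have h2 : Q ^ (2 * e) = 1 := by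
    rw [← (even_two_mul e).neg_pow, mul_comm, pow_mul, h1, one_pow]
  have h3 : i ∣ 2 * e := orderOf_dvd_of_pow_eq_one h2
  by_contra hcon
  rw [not_lt] at hcon
  split_ifs at hcon with hodd
  · have h4 : i ∣ e := (Nat.coprime_two_right.2 hodd).dvd_of_dvd_mul_left h3
    have h5 : e = i := le_antisymm hcon (Nat.le_of_dvd he0 h4)
    rw [h5, hodd.neg_pow, hidef, pow_orderOf_eq_one] at h1
    have h6 : ((2 : ℕ) : ZMod r) = 0 := by
      push_cast
      have : (2 : ZMod r) = 1 - (-1) := by ring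
      rw [this, h1]
      ring
    rw [ZMod.natCast_eq_zero_iff] at h6
    exact hr2 ((Nat.prime_dvd_prime_iff_eq hr Nat.prime_two).1 h6)
  · have heven : Even i := Nat.not_odd_iff_even.1 hodd
    obtain ⟨j, hj⟩ := heven
    have h4 : i ≤ 2 * e := Nat.le_of_dvd (by omega) h3
    have h5 : Even e := ⟨j / 2, by omega⟩
    rw [h5.neg_pow] at h1
    exact pow_ne_one_of_lt_orderOf (by omega) (by omega) h1

variable {K : Type*} [Field K]

theorem root_step (p : ℕ) [hp : Fact p.Prime] [CharP K p] {q k : ℕ} (hq : q = p ^ k)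
    (σ : K →+* K) (hσ : ∀ x, σ x = x ^ q) (hσσ : ∀ x, σ (σ x) = x) {r : ℕ} (hr : r.Prime)
    {P : K[X]} (hP : P ∈ facs K r) (hs : starP (P.map σ) = P)
    {L : Type*} [CommRing L] [Algebra K L] (x : L) (hx : aeval x P = 0) (hxr : x ^ r = 1) :
    aeval (x ^ ((r - 1) * q)) P = 0 := by
  have hq0 : q ≠ 0 := by
    rw [hq]; exact pow_ne_zero _ hp.out.ne_zero
  have h0 := coeff_zero_ne_zero_of_mem hr (map_mem σ hσσ hP)
  have h1 := reverse_eq_C_mul_starP h0
  rw [hs] at h1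
  have h2 : aeval x (P.map σ).reverse = 0 := by rw [h1, map_mul, hx, mul_zero]
  have hinv : x ^ (r - 1) * x = 1 := by
    rw [← pow_succ, Nat.sub_add_cancel hr.one_lt.le, hxr]
  let _ : Invertible (x ^ (r - 1)) := ⟨x, by rw [mul_comm]; exact hinv, hinv⟩
  have h3 := (eval₂_reverse_eq_zero_iff (algebraMap K L) (x ^ (r - 1)) (P.map σ)).1 h2
  have h4 : aeval (x ^ (r - 1)) (P.map σ) = 0 := h3
  have h5 := aeval_pow_map p hq σ hσ (P.map σ) (x ^ (r - 1))
  rw [h4, zero_pow hq0, map_map_self σ hσσ, ← pow_mul] at h5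
  exact h5

variable [Fintype K]

theorem starS_ne (p : ℕ) [hp : Fact p.Prime] [CharP K p] {q k : ℕ} (hq : q = p ^ k)
    (hK : Fintype.card K = q ^ 2)
    (σ : K →+* K) (hσ : ∀ x, σ x = x ^ q) (hσσ : ∀ x, σ (σ x) = x) {r : ℕ} (hr : r.Prime)
    (hr2 : r ≠ 2) (hrp : r ≠ p) (hi : orderOf (q : ZMod r) % 4 ≠ 2) (P : ↥(facs K r)) :
    starS p hr hrp σ hσσ P ≠ P := by
  classical
  intro hs
  have hs' : starP (P.1.map σ) = P.1 := congrArg Subtype.val hs
  have hrq : ¬ r ∣ q := by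
    intro h
    rw [hq] at h
    exact hrp ((Nat.prime_dvd_prime_iff_eq hr hp.out).1 (hr.dvd_of_dvd_pow h))
  obtain ⟨h1, h2, -⟩ := mem_facs_iff.1 P.2
  have h5 : P.1 ∣ X ^ r - 1 := (dvd_X_pow_sub_one_iff hr h1 h2).2 (Or.inr P.2)
  have : Fact (Irreducible P.1) := ⟨h1⟩
  have : Fact r.Prime := ⟨hr⟩
  set ζ := AdjoinRoot.root P.1 with hζ
  have hroot : aeval ζ P.1 = 0 := by
    rw [AdjoinRoot.aeval_eq, AdjoinRoot.mk_self]
  have hζr : ζ ^ r = 1 := by
    have h6 : aeval ζ (X ^ r - 1 : K[X]) = 0 := by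
      obtain ⟨Q, hQ⟩ := h5
      rw [hQ, map_mul, hroot, zero_mul]
    simpa [sub_eq_zero] using h6
  have hζ1 : ζ ≠ 1 := by
    intro h
    rw [h] at hroot
    have h6 : aeval (1 : AdjoinRoot P.1) P.1 = algebraMap K (AdjoinRoot P.1) (P.1.eval 1) := by
      have := aeval_algebraMap_apply (AdjoinRoot P.1) (1 : K) P.1
      rw [map_one] at this
      rw [this]
      rfl
    rw [h6, map_eq_zero] at hroot
    exact eval_one_ne_zero_of_mem p hr hrp P.2 hroot
  have hord : orderOf ζ = r := orderOf_eq_prime hζr hζ1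
  set u := (r - 1) * q with hu
  have hall : ∀ j : ℕ, aeval (ζ ^ (u ^ j)) P.1 = 0 := by
    intro j
    induction j with
    | zero => simpa using hroot
    | succ j ih =>
      rw [pow_succ, pow_mul]
      exact root_step p hq σ hσ hσσ hr P.2 hs' _ ih (by rw [← pow_mul, mul_comm, pow_mul, hζr, one_pow])
  set e := orderOf ((u : ℕ) : ZMod r) with he
  have hinj : Set.InjOn (fun j : ℕ => ζ ^ (u ^ j)) (Finset.range e : Set ℕ) := by
    intro a ha b hb hab
    simp only at hab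
    rw [(isOfFinOrder_iff_pow_eq_one.2 ⟨r, hr.pos, hζr⟩).pow_eq_pow_iff_modEq, hord,
      ← ZMod.natCast_eq_natCast_iff] at hab
    push_cast at hab
    apply pow_injOn_Iio_orderOf (x := ((u : ℕ) : ZMod r))
    · simpa using ha
    · simpa using hb
    · exact hab
  have hne : P.1.map (algebraMap K (AdjoinRoot P.1)) ≠ 0 := (h2.map _).ne_zero
  have hsub : ((Finset.range e).image (fun j : ℕ => ζ ^ (u ^ j))).val ⊆
      (P.1.map (algebraMap K (AdjoinRoot P.1))).roots := by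
    intro x hx
    rw [Finset.mem_val, Finset.mem_image] at hx
    obtain ⟨j, -, rfl⟩ := hx
    rw [mem_roots hne, IsRoot, eval_map_algebraMap]
    exact hall j
  have hle := card_le_degree_of_subset_roots hsub
  rw [Finset.card_image_of_injOn hinj, Finset.card_range, natDegree_map,
    natDegree_of_mem p hr hrp P.2, hK, orderOf_sq_cast] at hle
  exact absurd (lt_orderOf_neg hr hr2 hrq hi) (not_lt.2 hle)

theorem starS_eq (p : ℕ) [hp : Fact p.Prime] [CharP K p] {q k : ℕ} (hq : q = p ^ k)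
    (hK : Fintype.card K = q ^ 2)
    (σ : K →+* K) (hσ : ∀ x, σ x = x ^ q) (hσσ : ∀ x, σ (σ x) = x) {r : ℕ} (hr : r.Prime)
    (hrp : r ≠ p) (hi : orderOf (q : ZMod r) % 4 = 2) (P : ↥(facs K r)) :
    starS p hr hrp σ hσσ P = P := by
  apply Subtype.ext
  show starP (P.1.map σ) = P.1
  have hq0 : q ≠ 0 := by
    rw [hq]; exact pow_ne_zero _ hp.out.ne_zero
  have hrq : ¬ r ∣ q := by
    intro h
    rw [hq] at h
    exact hrp ((Nat.prime_dvd_prime_iff_eq hr hp.out).1 (hr.dvd_of_dvd_pow h))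
  have heven : Even (orderOf (q : ZMod r)) := ⟨orderOf (q : ZMod r) / 2, by omega⟩
  obtain ⟨c, hc⟩ := dvd_pow_half_add_one hr hrq heven
  obtain ⟨l, hl⟩ : ∃ l, orderOf (q : ZMod r) / 2 = 2 * l + 1 := ⟨orderOf (q : ZMod r) / 4, by omega⟩
  rw [hl] at hc
  obtain ⟨h1, h2, -⟩ := mem_facs_iff.1 P.2
  have h5 : P.1 ∣ X ^ r - 1 := (dvd_X_pow_sub_one_iff hr h1 h2).2 (Or.inr P.2)
  have : Fact (Irreducible P.1) := ⟨h1⟩
  set ζ := AdjoinRoot.root P.1 with hζ
  have hroot : aeval ζ P.1 = 0 := by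
    rw [AdjoinRoot.aeval_eq, AdjoinRoot.mk_self]
  have hζr : ζ ^ r = 1 := by
    have h6 : aeval ζ (X ^ r - 1 : K[X]) = 0 := by
      obtain ⟨Q, hQ⟩ := h5
      rw [hQ, map_mul, hroot, zero_mul]
    simpa [sub_eq_zero] using h6
  have hinv : ζ ^ (q ^ (2 * l + 1)) * ζ = 1 := by
    rw [← pow_succ, hc, pow_mul, hζr, one_pow]
  have h7 := aeval_pow_card_pow P.1 ζ hroot l
  have h8 := aeval_pow_map p hq σ hσ P.1 (ζ ^ (Fintype.card K ^ l))
  rw [h7, zero_pow hq0, hK, ← pow_mul, ← pow_mul, ← pow_succ] at h8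
  let _ : Invertible (ζ ^ (q ^ (2 * l + 1))) := ⟨ζ, by rw [mul_comm]; exact hinv, hinv⟩
  have h9 := (eval₂_reverse_eq_zero_iff (algebraMap K (AdjoinRoot P.1)) (ζ ^ (q ^ (2 * l + 1)))
    (P.1.map σ)).2 h8
  have h10 : aeval ζ (P.1.map σ).reverse = 0 := h9
  have hm := map_mem σ hσσ P.2
  have h0 := coeff_zero_ne_zero_of_mem hr hm
  rw [AdjoinRoot.aeval_eq, AdjoinRoot.mk_eq_zero, reverse_eq_C_mul_starP h0] at h10
  have hu : IsUnit (C ((P.1.map σ).coeff 0) : K[X]) := isUnit_C.2 (isUnit_iff_ne_zero.2 h0)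
  have h11 : P.1 ∣ starP (P.1.map σ) := (hu.dvd_mul_left).1 h10
  exact (eq_of_monic_of_associated h2 (monic_starP h0)
    (h1.associated_of_dvd (irreducible_starP (mem_facs_iff.1 hm).1 h0) h11)).symm

end Cfsg.Agent.Lib.Helper38.CycF
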