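import Mathlib
import Cfsg.Agent.Lib.Helper38.StarSigma2
import Cfsg.Agent.Lib.Helper38.InvolMultiset
import Cfsg.Agent.Lib.Helper44.GUSim
import Cfsg.Agent.Lib.Helper44.SSConj

set_option autoImplicit false

/-! Elements of odd prime order `r` of `GU_n(q)`. -/

namespace Cfsg.Agent.Lib.Helper38.CycF

open Polynomial Matrix Cfsg.Agent.Lib.Helper45 Cfsg.Agent.Lib.Helper44

variable {K : Type*} [Field K]

theorem isUnit_dagger {ι : Type*} [Fintype ι] [DecidableEq ι] (σ : K →+* K) (M : Matrix ι ι K)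
    (hM : IsUnit M) : IsUnit (M.map σ)ᵀ := by
  rw [Matrix.isUnit_iff_isUnit_det] at hM ⊢
  rw [det_transpose]
  have h1 : (M.map σ).det = σ M.det := (RingHom.map_det σ M).symm
  rw [h1]
  exact hM.map σ

theorem charpoly_dagger_inv (p : ℕ) [hp : Fact p.Prime] [CharP K p] {r : ℕ} (hr : r.Prime)
    (hrp : r ≠ p) (σ : K →+* K) (hσσ : ∀ x, σ (σ x) = x)
    {ι : Type*} [Fintype ι] [DecidableEq ι] (M : Matrix ι ι K) (hM : IsUnit M)
    (μ : Multiset ↥(facs K r)) (k : ℕ) (h : M.charpoly = f0 μ * (X - 1) ^ k) :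
    (((M.map σ)ᵀ)⁻¹).charpoly = f0 (μ.map (starS p hr hrp σ hσσ)) * (X - 1) ^ k := by
  have hu := isUnit_dagger σ M hM
  obtain ⟨c, hc⟩ := reverse_map_f0 p hr hrp σ hσσ μ k
  have hmon : (((M.map σ)ᵀ)⁻¹).charpoly.Monic := charpoly_monic _
  have hG : (f0 (μ.map (starS p hr hrp σ hσσ)) * (X - 1) ^ k).Monic := by
    apply (monic_f0 _).mul
    apply Monic.pow
    have := monic_X_sub_C (1 : K)
    simpa using this
  have h1 : (((M.map σ)ᵀ)⁻¹).charpoly =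
      C ((-1) ^ Fintype.card ι * Ring.inverse ((M.map σ)ᵀ).det * c) *
        (f0 (μ.map (starS p hr hrp σ hσσ)) * (X - 1) ^ k) := by
    have h2 : (M.map σ).charpoly = M.charpoly.map σ := charpoly_map M σ
    rw [Matrix.charpoly_inv _ hu, ← Matrix.reverse_charpoly, Matrix.charpoly_transpose,
      h2, h, hc]
    simp only [C_mul, map_pow, map_neg, map_one]
    ring
  have h2 := congrArg leadingCoeff h1
  rw [leadingCoeff_mul, leadingCoeff_C, hmon.leadingCoeff, hG.leadingCoeff, mul_one] at h2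
  rw [h1, ← h2, C_1, one_mul]

variable [Fintype K]

theorem gu_typ_eq_tau (p : ℕ) [hp : Fact p.Prime] [CharP K p] {r : ℕ} (hr : r.Prime)
    (hrp : r ≠ p) {q : ℕ} (σ : K →+* K) (hσ : ∀ x, σ x = x ^ q) (hσσ : ∀ x, σ (σ x) = x)
    (n b : ℕ) (hb : b = orderOf ((Fintype.card K : ℕ) : ZMod r))
    (g : ↥(Cfsg.GU n K q)) (hg : orderOf g = r) :
    ∃ μ : Multiset ↥(facs K r), μ ≠ 0 ∧ b * Multiset.card μ ≤ n ∧
      typ ((g : GL (Fin n) K) : Matrix (Fin n) (Fin n) K) = tau n b r μ ∧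
      μ.map (starS p hr hrp σ hσσ) = μ := by
  have hg' : orderOf (g : GL (Fin n) K) = r := by rw [Subgroup.orderOf_coe]; exact hg
  obtain ⟨μ, hμ0, hμ, hT⟩ := typ_eq_tau p hr hrp n b hb (g : GL (Fin n) K) hg'
  refine ⟨μ, hμ0, hμ, hT, ?_⟩
  have h3 := (hasType_typ ((g : GL (Fin n) K) : Matrix (Fin n) (Fin n) K)).charpoly_of_mem_ssTypes
    (by rw [hT]; exact tau_mem_ssTypes p hr hrp n b hb μ hμ)
  rw [hT, prod_tau] at h3
  have hG := (mem_GU_iff σ hσ (g : GL (Fin n) K)).1 g.2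
  have h4 := charpoly_dagger_inv p hr hrp σ hσσ _ (g : GL (Fin n) K).isUnit μ _ h3
  rw [Matrix.inv_eq_right_inv hG, h3] at h4
  have hX : ((X - 1 : K[X]) ^ (n - b * Multiset.card μ)) ≠ 0 := by
    apply pow_ne_zero
    have := (monic_X_sub_C (1 : K)).ne_zero
    simpa using this
  exact (f0_injective (mul_right_cancel₀ hX h4)).symm

theorem gu_exists_of_tau (p : ℕ) [hp : Fact p.Prime] [CharP K p] {r : ℕ} (hr : r.Prime)
    (hrp : r ≠ p) {q : ℕ} (hK : Fintype.card K = q ^ 2)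
    (σ : K →+* K) (hσ : ∀ x, σ x = x ^ q) (hσσ : ∀ x, σ (σ x) = x)
    (n b : ℕ) (hb : b = orderOf ((Fintype.card K : ℕ) : ZMod r))
    (μ : Multiset ↥(facs K r)) (hμ0 : μ ≠ 0) (hμ : b * Multiset.card μ ≤ n)
    (hstar : μ.map (starS p hr hrp σ hσσ) = μ) :
    ∃ g : ↥(Cfsg.GU n K q), orderOf g = r ∧
      typ ((g : GL (Fin n) K) : Matrix (Fin n) (Fin n) K) = tau n b r μ := by
  have hcop : r.Coprime p := (Nat.coprime_primes hr hp.out).2 hrp
  obtain ⟨A, hA, hT⟩ := exists_of_tau p hr hrp n b hb μ hμ0 hμ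
  have h3 := (hasType_typ (A : Matrix (Fin n) (Fin n) K)).charpoly_of_mem_ssTypes
    (by rw [hT]; exact tau_mem_ssTypes p hr hrp n b hb μ hμ)
  rw [hT, prod_tau] at h3
  have h4 := charpoly_dagger_inv p hr hrp σ hσσ _ A.isUnit μ _ h3
  rw [hstar, ← h3] at h4
  have hAr : (A : Matrix (Fin n) (Fin n) K) ^ r = 1 := by
    rw [← Units.val_pow_eq_pow_val, ← hA, pow_orderOf_eq_one]
    rfl
  have hBr : ((((A : Matrix (Fin n) (Fin n) K).map σ)ᵀ)⁻¹) ^ r = 1 := by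
    have h5 : ((A : Matrix (Fin n) (Fin n) K).map σ) = σ.mapMatrix (A : Matrix (Fin n) (Fin n) K) := rfl
    rw [Matrix.inv_pow', ← Matrix.transpose_pow, h5, ← map_pow, hAr]
    simp
  obtain ⟨P, hP⟩ := exists_conj_of_charpoly_eq p hcop hcop hAr hBr h4.symm
  have hσf : (fun x : K => x ^ q) = ⇑σ := funext (fun x => (hσ x).symm)
  obtain ⟨B, hB⟩ := (GU_similar_iff hK A).2 (by rw [hσf]; exact ⟨P, hP⟩)
  have hTB : typ ((B : GL (Fin n) K) : Matrix (Fin n) (Fin n) K) = tau n b r μ := by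
    rw [← (isConj_iff_typ_eq _ _).1 hB, hT]
  refine ⟨B, ?_, hTB⟩
  have hH := hasType_typ ((B : GL (Fin n) K) : Matrix (Fin n) (Fin n) K)
  rw [hTB] at hH
  have : Fact r.Prime := ⟨hr⟩
  apply orderOf_eq_prime
  · apply Subtype.ext
    apply Units.ext
    exact pow_eq_one_of_hasType_tau hr _ _ _ hH
  · intro h
    apply ne_one_of_hasType_tau p hr hrp _ _ _ hμ0 hH
    rw [h]
    rfl

theorem gu_card_classes {q : ℕ} (hK : Fintype.card K = q ^ 2) (n r : ℕ)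
    {M : Type*} (τ : M → Multiset (K[X] × ℕ)) (hτ : Function.Injective τ)
    (h1 : ∀ g : ↥(Cfsg.GU n K q), orderOf g = r →
      ∃ x, typ ((g : GL (Fin n) K) : Matrix (Fin n) (Fin n) K) = τ x)
    (h2 : ∀ x, ∃ g : ↥(Cfsg.GU n K q), orderOf g = r ∧
      typ ((g : GL (Fin n) K) : Matrix (Fin n) (Fin n) K) = τ x) :
    Nat.card {C : ConjClasses ↥(Cfsg.GU n K q) //
      ∃ g : ↥(Cfsg.GU n K q), ConjClasses.mk g = C ∧ orderOf g = r} = Nat.card M := by
  symm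
  apply Nat.card_congr
  refine Equiv.ofBijective (fun x => ⟨ConjClasses.mk (h2 x).choose, (h2 x).choose, rfl,
    (h2 x).choose_spec.1⟩) ⟨?_, ?_⟩
  · intro x y hxy
    have h3 : ConjClasses.mk (h2 x).choose = ConjClasses.mk (h2 y).choose :=
      congrArg Subtype.val hxy
    have h4 := (isConj_iff_typ_eq _ _).1
      ((GU_isConj_iff hK _ _).1 (ConjClasses.mk_eq_mk_iff_isConj.1 h3))
    rw [(h2 x).choose_spec.2, (h2 y).choose_spec.2] at h4
    exact hτ h4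
  · rintro ⟨C, g, rfl, hg⟩
    obtain ⟨x, hx⟩ := h1 g hg
    refine ⟨x, Subtype.ext ?_⟩
    apply ConjClasses.mk_eq_mk_iff_isConj.2
    apply (GU_isConj_iff hK _ _).2
    apply (isConj_iff_typ_eq _ _).2
    rw [(h2 x).choose_spec.2, hx]

end Cfsg.Agent.Lib.Helper38.CycF
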