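import Mathlib
import Cfsg.Agent.Lib.Helper38.HomoNT

set_option autoImplicit false

namespace Cfsg.Agent.Lib.Helper38.Homo

variable {q r : ℕ} [hr : Fact r.Prime]

lemma val_pow_sub_one_gen (hq : 2 ≤ q) (hrq : ¬ r ∣ q) (hodd : Odd r) {j : ℕ} (hj0 : 0 < j)
    (hj : ∀ k, j = orderOf (q : ZMod r) * k → ¬ r ∣ k) :
    padicValNat r (q ^ j - 1) =
      if orderOf (q : ZMod r) ∣ j then padicValNat r (q ^ orderOf (q : ZMod r) - 1) else 0 := by
  set d := orderOf (q : ZMod r) with hd
  split_ifs with h
  · obtain ⟨k, rfl⟩ := h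
    have hk0 : k ≠ 0 := by rintro rfl; simp at hj0
    have hd0 : 0 < d := orderOf_pos' hrq
    have h1 : 1 < q ^ d := by
      have : 2 ^ 1 ≤ q ^ d :=
        le_trans (Nat.pow_le_pow_left hq 1) (Nat.pow_le_pow_right (by omega) hd0)
      omega
    have h2 : r ∣ q ^ d - 1 := (dvd_pow_sub_one_iff (by omega) d).2 (dvd_refl _)
    have h3 : ¬ r ∣ q ^ d := fun h => hrq (hr.out.dvd_of_dvd_pow h)
    have := padicValNat.pow_sub_pow hodd h1 h2 h3 hk0
    rw [one_pow, ← pow_mul] at this
    rw [this, padicValNat.eq_zero_of_not_dvd (hj k rfl), add_zero]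
  · apply padicValNat.eq_zero_of_not_dvd
    rwa [dvd_pow_sub_one_iff (by omega)]

lemma factorization_card_GL' (hq : 2 ≤ q) (hrq : ¬ r ∣ q) (hodd : Odd r) {n : ℕ}
    (hn : n < orderOf (q : ZMod r) * r) :
    (∏ i : Fin n, (q ^ n - q ^ (i : ℕ))).factorization r =
      (n / orderOf (q : ZMod r)) * padicValNat r (q ^ orderOf (q : ZMod r) - 1) := by
  set d := orderOf (q : ZMod r) with hd
  rw [Fin.prod_univ_eq_prod_range (fun i => q ^ n - q ^ i) n]
  have hne : ∀ i ∈ Finset.range n, q ^ n - q ^ i ≠ 0 := by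
    intro i hi
    rw [Finset.mem_range] at hi
    have := Nat.pow_lt_pow_right (show 1 < q by omega) hi
    omega
  rw [Nat.factorization_prod hne, Finsupp.finsetSum_apply]
  have hterm : ∀ i ∈ Finset.range n, (q ^ n - q ^ i).factorization r =
      if d ∣ (n - 1 - i) + 1 then padicValNat r (q ^ d - 1) else 0 := by
    intro i hi
    rw [Finset.mem_range] at hi
    have h1 : q ^ n - q ^ i = q ^ i * (q ^ (n - i) - 1) := by
      rw [Nat.mul_sub, ← pow_add, mul_one]
      congr 2; omega
    have h2 : n - 1 - i + 1 = n - i := by omega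
    rw [h2, Nat.factorization_def _ hr.out, h1, padicValNat.mul (by positivity), 
      padicValNat.eq_zero_of_not_dvd (fun h => hrq (hr.out.dvd_of_dvd_pow h)), zero_add,
      val_pow_sub_one_gen hq hrq hodd (by omega)]
    · intro k hk hrk
      rw [← hd] at hk
      have hk0 : 0 < k := by
        rcases Nat.eq_zero_or_pos k with rfl | h
        · simp at hk; omega
        · exact h
      have h3 := Nat.le_of_dvd hk0 hrk
      have h4 : d * r ≤ d * k := Nat.mul_le_mul_left d h3
      omega
    · have := Nat.pow_lt_pow_right (show 1 < q by omega) (show 0 < n - i by omega)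
      simp at this
      omega
  rw [Finset.sum_congr rfl hterm,
    Finset.sum_range_reflect (fun j => if d ∣ j + 1 then padicValNat r (q ^ d - 1) else 0) n,
    ← Finset.sum_filter, Finset.sum_const, Nat.card_multiples, smul_eq_mul]

/-- the `r`-part of the order of `Sp_{2n}(q)`. -/
lemma factorization_card_Sp (hq : 2 ≤ q) (hrq : ¬ r ∣ q) (hodd : Odd r) {n : ℕ} (hn : n < r) :
    (q ^ (n ^ 2) * ∏ i ∈ Finset.range n, (q ^ (2 * (i + 1)) - 1)).factorization r =
      ((Finset.range n).filter (fun i => orderOf (q : ZMod r) ∣ 2 * (i + 1))).card *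
        padicValNat r (q ^ orderOf (q : ZMod r) - 1) := by
  set d := orderOf (q : ZMod r) with hd
  have hne : ∀ i ∈ Finset.range n, q ^ (2 * (i + 1)) - 1 ≠ 0 := by
    intro i _
    have := Nat.pow_lt_pow_right (show 1 < q by omega) (show 0 < 2 * (i + 1) by omega)
    rw [pow_zero] at this
    omega
  rw [Nat.factorization_mul (by positivity) (Finset.prod_ne_zero_iff.2 hne), Finsupp.add_apply,
    Nat.factorization_prod hne, Finsupp.finsetSum_apply, Nat.factorization_def _ hr.out,
    padicValNat.eq_zero_of_not_dvd (fun h => hrq (hr.out.dvd_of_dvd_pow h)), zero_add]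
  have hterm : ∀ i ∈ Finset.range n, (q ^ (2 * (i + 1)) - 1).factorization r =
      if d ∣ 2 * (i + 1) then padicValNat r (q ^ d - 1) else 0 := by
    intro i hi
    rw [Finset.mem_range] at hi
    rw [Nat.factorization_def _ hr.out, val_pow_sub_one_gen hq hrq hodd (by omega)]
    intro k hk hrk
    have h1 : r ∣ 2 * (i + 1) := by rw [hk]; exact Dvd.dvd.mul_left hrk _
    rcases (Nat.Prime.dvd_mul hr.out).1 h1 with h2 | h2
    · have := Nat.le_of_dvd (by norm_num) h2
      have h3 := hr.out.two_le
      have : r = 2 := by omega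
      rw [this] at hodd
      exact absurd hodd (by decide)
    · have := Nat.le_of_dvd (by omega) h2
      omega
  rw [Finset.sum_congr rfl hterm, ← Finset.sum_filter, Finset.sum_const, smul_eq_mul]

end Cfsg.Agent.Lib.Helper38.Homo
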