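import Mathlib
import Cfsg.Agent.Lib.Helper38.HomoMain
import Cfsg.Agent.Lib.Helper38.HomoNT2

set_option autoImplicit false
open scoped MatrixGroups

namespace Cfsg.Agent.Lib.Helper38.Homo

theorem sylow_equiv_of_two_injective {G₁ G₂ : Type*} [Group G₁] [Finite G₁] [Group G₂] [Finite G₂]
    {r : ℕ} [Fact r.Prime] (P : Sylow r G₁) {H : Type*} [Group H] (ψ : G₁ →* G₂)
    (hψ : Function.Injective ψ) (φ : H →* G₂) (hφ : Function.Injective φ)
    (hcard : Nat.card H = r ^ (Nat.card G₂).factorization r)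
    (hfac : (Nat.card G₁).factorization r = (Nat.card G₂).factorization r) :
    Nonempty (↥(P : Subgroup G₁) ≃* H) := by
  have h1 : Nat.card ((P : Subgroup G₁).map ψ) = r ^ (Nat.card G₂).factorization r := by
    rw [Subgroup.card_map_of_injective hψ, ← hfac]
    exact P.card_eq_multiplicity
  obtain ⟨e⟩ := sylow_equiv_of_injective (Sylow.ofCard _ h1) φ hφ hcard
  exact ⟨((P : Subgroup G₁).equivMapOfInjective ψ hψ).trans e⟩

variable {F : Type*} [Field F]

/-- `Sp_{2n}(F)` inside `GL_{n+n}(F)`. -/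
theorem exists_Sp_to_GL (n : ℕ) :
    ∃ ψ : ↥(Matrix.symplecticGroup (Fin n) F) →* GL (Fin (n + n)) F, Function.Injective ψ := by
  let e := Units.mapEquiv (Matrix.reindexAlgEquiv F F (finSumFinEquiv (m := n) (n := n))).toMulEquiv
  refine ⟨e.toMonoidHom.comp (Matrix.symplecticGroup (Fin n) F).subtype.toHomUnits,
    e.injective.comp ?_⟩
  intro a b hab
  have := congrArg Units.val hab
  exact Subtype.ext this

/-- `GL_n(F)` inside `Sp_{2n}(F)`. -/
theorem exists_GL_to_Sp (n : ℕ) :
    ∃ ψ : GL (Fin n) F →* ↥(Matrix.symplecticGroup (Fin n) F), Function.Injective ψ := by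
  have hmem : ∀ g : GL (Fin n) F, Matrix.fromBlocks (g : Matrix (Fin n) (Fin n) F) 0 0
      ((g⁻¹ : GL (Fin n) F) : Matrix (Fin n) (Fin n) F).transpose ∈
        Matrix.symplecticGroup (Fin n) F := by
    intro g
    rw [SymplecticGroup.mem_iff, Matrix.J, Matrix.fromBlocks_multiply,
      Matrix.fromBlocks_transpose, Matrix.fromBlocks_multiply]
    have h1 : (g : Matrix (Fin n) (Fin n) F) * ((g⁻¹ : GL (Fin n) F) : Matrix (Fin n) (Fin n) F) = 1 := by
      rw [← Units.val_mul, mul_inv_cancel]; rfl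
    have h2 : ((g⁻¹ : GL (Fin n) F) : Matrix (Fin n) (Fin n) F).transpose *
        (g : Matrix (Fin n) (Fin n) F).transpose = 1 := by
      rw [← Matrix.transpose_mul, h1, Matrix.transpose_one]
    simp only [Matrix.mul_zero, Matrix.zero_mul, Matrix.mul_one, Matrix.mul_neg, Matrix.neg_mul,
      Matrix.transpose_zero, Matrix.transpose_transpose, add_zero, zero_add, h1, h2, neg_zero]
  refine ⟨{ toFun := fun g => ⟨_, hmem g⟩, map_one' := ?_, map_mul' := ?_ }, ?_⟩
  · apply Subtype.ext
    simp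
  · intro a b
    apply Subtype.ext
    show _ = Matrix.fromBlocks _ _ _ _ * Matrix.fromBlocks _ _ _ _
    rw [Matrix.fromBlocks_multiply]
    simp [Matrix.transpose_mul]
  · intro a b hab
    have h := congrArg Subtype.val hab
    have := (Matrix.fromBlocks_inj.1 h).1
    exact Units.ext this

end Cfsg.Agent.Lib.Helper38.Homo
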