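import Cfsg.Agent.S0778
import Cfsg.Agent.Lib.Helper5.Frames
import Cfsg.Agent.Lib.Helper94.SympWrap
import Cfsg.Agent.Lib.Helper13.SympTrans

set_option autoImplicit false

/-! Pairs of complementary totally isotropic subspaces of the symplectic space: transitivity and
their number. -/

namespace Cfsg.Agent.Lib.Helper38.LagPair

open Matrix Module Cfsg.Agent.Lib.Helper13 Cfsg.Agent.Lib.Helper94 Cfsg.Agent.Lib.Helper5

variable {F : Type*} [Field F] {d : ℕ}

/-- totally isotropic -/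
def TI (U : Submodule F (Fin d ⊕ Fin d → F)) : Prop :=
  ∀ u ∈ U, ∀ v ∈ U, Cfsg.sympForm d F u v = 0

/-- the pairing `W → U*` -/
noncomputable def pairing (U W : Submodule F (Fin d ⊕ Fin d → F)) : W →ₗ[F] U →ₗ[F] F :=
  LinearMap.domRestrict₁₂ (sympB d F).flip W U

theorem pairing_apply (U W : Submodule F (Fin d ⊕ Fin d → F)) (w : W) (u : U) :
    pairing U W w u = Cfsg.sympForm d F u w := by
  rw [pairing, LinearMap.domRestrict₁₂_apply]
  exact sympB_apply d _ _

theorem pairing_injective {U W : Submodule F (Fin d ⊕ Fin d → F)} (hc : IsCompl U W) (hW : TI W) :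
    Function.Injective (pairing U W) := by
  rw [← LinearMap.ker_eq_bot, LinearMap.ker_eq_bot']
  intro w hw
  apply Subtype.ext
  apply sympForm_nondeg
  intro v
  have hv : v ∈ U ⊔ W := by rw [hc.sup_eq_top]; trivial
  obtain ⟨u, hu, w', hw', rfl⟩ := Submodule.mem_sup.1 hv
  rw [sympForm_add_right, hW _ w.2 _ hw', add_zero, sympForm_swap]
  have h1 := congrArg (fun f : U →ₗ[F] F => f ⟨u, hu⟩) hw
  simp only [pairing_apply, LinearMap.zero_apply] at h1
  rw [h1, neg_zero]

theorem finrank_le {U W : Submodule F (Fin d ⊕ Fin d → F)} (hc : IsCompl U W) (hW : TI W) :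
    finrank F W ≤ finrank F U := by
  have h := LinearMap.finrank_le_finrank_of_injective (pairing_injective hc hW)
  have h2 : finrank F (U →ₗ[F] F) = finrank F U := Subspace.dual_finrank_eq
  rwa [h2] at h

theorem finrank_eq {U W : Submodule F (Fin d ⊕ Fin d → F)} (hc : IsCompl U W) (hU : TI U)
    (hW : TI W) : finrank F U = d ∧ finrank F W = d := by
  have h1 := finrank_le hc hW
  have h2 := finrank_le hc.symm hU
  have h3 := Submodule.finrank_add_eq_of_isCompl hc
  rw [Module.finrank_fintype_fun_eq_card, Fintype.card_sum, Fintype.card_fin] at h3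
  omega

theorem exists_dual {U W : Submodule F (Fin d ⊕ Fin d → F)} (hc : IsCompl U W) (hU : TI U)
    (hW : TI W) : ∃ u w : Fin d → (Fin d ⊕ Fin d → F), (∀ i, u i ∈ U) ∧ (∀ j, w j ∈ W) ∧
      ∀ i j, Cfsg.sympForm d F (u i) (w j) = if i = j then -1 else 0 := by
  obtain ⟨h1, h2⟩ := finrank_eq hc hU hW
  let b : Basis (Fin d) F U := Module.finBasisOfFinrankEq F U h1
  have hsurj : Function.Surjective (pairing U W) := by
    apply (LinearMap.injective_iff_surjective_of_finrank_eq_finrank _).1 (pairing_injective hc hW)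
    have h3 : finrank F (U →ₗ[F] F) = finrank F U := Subspace.dual_finrank_eq
    rw [h3, h1, h2]
  choose w hw using fun j => hsurj (-(b.coord j))
  refine ⟨fun i => (b i : Fin d ⊕ Fin d → F), fun j => (w j : Fin d ⊕ Fin d → F),
    fun i => (b i).2, fun j => (w j).2, ?_⟩
  intro i j
  rw [← pairing_apply, hw, LinearMap.neg_apply, Basis.coord_apply, Basis.repr_self,
    Finsupp.single_apply]
  split_ifs <;> simp

/-- the standard pair -/
def U0 (d : ℕ) (F : Type*) [Field F] : Submodule F (Fin d ⊕ Fin d → F) where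
  carrier := {v | ∀ i : Fin d, v (Sum.inr i) = 0}
  add_mem' := by
    intro a b ha hb i
    simp [ha i, hb i]
  zero_mem' := by intro i; rfl
  smul_mem' := by
    intro c a ha i
    simp [ha i]

def W0 (d : ℕ) (F : Type*) [Field F] : Submodule F (Fin d ⊕ Fin d → F) where
  carrier := {v | ∀ i : Fin d, v (Sum.inl i) = 0}
  add_mem' := by
    intro a b ha hb i
    simp [ha i, hb i]
  zero_mem' := by intro i; rfl
  smul_mem' := by
    intro c a ha i
    simp [ha i]

theorem isCompl_std (d : ℕ) (F : Type*) [Field F] : IsCompl (U0 d F) (W0 d F) := by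
  constructor
  · rw [Submodule.disjoint_def]
    intro v h1 h2
    funext x
    rcases x with i | i
    · exact h2 i
    · exact h1 i
  · rw [codisjoint_iff, eq_top_iff]
    intro v _
    have : v = Sum.elim (fun i => v (Sum.inl i)) (fun _ => (0 : F))
        + Sum.elim (fun _ => (0 : F)) (fun i => v (Sum.inr i)) := by
      funext x
      rcases x with i | i <;> simp
    rw [this]
    exact Submodule.add_mem_sup (fun i => rfl) (fun i => rfl)

theorem ti_U0 (d : ℕ) (F : Type*) [Field F] : TI (U0 d F) := by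
  intro u hu v hv
  rw [sympForm_eq_sum]
  apply Finset.sum_eq_zero
  intro i _
  rw [hu i, hv i]
  ring

theorem ti_W0 (d : ℕ) (F : Type*) [Field F] : TI (W0 d F) := by
  intro u hu v hv
  rw [sympForm_eq_sum]
  apply Finset.sum_eq_zero
  intro i _
  rw [hu i, hv i]
  ring

/-- transitivity on the pairs -/
theorem exists_sp {U W : Submodule F (Fin d ⊕ Fin d → F)} (hc : IsCompl U W) (hU : TI U)
    (hW : TI W) : ∃ g : ↥(Matrix.symplecticGroup (Fin d) F),
      (U0 d F).map (Matrix.toLin' (g : Matrix (Fin d ⊕ Fin d) (Fin d ⊕ Fin d) F)) = U ∧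
      (W0 d F).map (Matrix.toLin' (g : Matrix (Fin d ⊕ Fin d) (Fin d ⊕ Fin d) F)) = W := by
  obtain ⟨u, w, hu, hw, huw⟩ := exists_dual hc hU hW
  let A : Matrix (Fin d ⊕ Fin d) (Fin d ⊕ Fin d) F := Matrix.of fun x y => Sum.elim u w y x
  have hcol : ∀ y, A *ᵥ Pi.single y 1 = Sum.elim u w y := by
    intro y
    rw [Matrix.mulVec_single_one]
    rfl
  have hA : A ∈ Matrix.symplecticGroup (Fin d) F := by
    rw [SymplecticGroup.mem_iff']
    ext x y
    have h1 := sympForm_mulVec_mulVec A (Pi.single x 1) (Pi.single y 1)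
    rw [hcol, hcol] at h1
    have h2 : (Pi.single x 1 : Fin d ⊕ Fin d → F) ⬝ᵥ ((Aᵀ * Matrix.J (Fin d) F * A) *ᵥ Pi.single y 1)
        = (Aᵀ * Matrix.J (Fin d) F * A) x y := by
      simp
    rw [h2] at h1
    rw [← h1]
    rcases x with i | i <;> rcases y with j | j
    · simp [Matrix.J, hU _ (hu i) _ (hu j)]
    · simp only [Sum.elim_inl, Sum.elim_inr, huw, Matrix.J, Matrix.fromBlocks_apply₁₂,
        Matrix.neg_apply, Matrix.one_apply]
      split_ifs <;> simp
    · simp only [Sum.elim_inl, Sum.elim_inr, Matrix.J, Matrix.fromBlocks_apply₂₁,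
        Matrix.one_apply]
      rw [sympForm_swap, huw]
      by_cases h : i = j
      · subst h; simp
      · rw [if_neg h, if_neg (Ne.symm h)]; simp
    · simp [Matrix.J, hW _ (hw i) _ (hw j)]
  have hmul : ∀ v, A *ᵥ v = ∑ y, v y • Sum.elim u w y := by
    intro v
    rw [Matrix.mulVec_eq_sum]
    apply Finset.sum_congr rfl
    intro y _
    funext x
    simp [A, mul_comm]
  have hUle : (U0 d F).map (Matrix.toLin' A) ≤ U := by
    rintro _ ⟨v, hv, rfl⟩
    rw [Matrix.toLin'_apply, hmul, Fintype.sum_sum_type]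
    apply U.add_mem
    · exact U.sum_mem (fun i _ => U.smul_mem _ (hu i))
    · apply U.sum_mem
      intro i _
      rw [hv i, zero_smul]
      exact U.zero_mem
  have hWle : (W0 d F).map (Matrix.toLin' A) ≤ W := by
    rintro _ ⟨v, hv, rfl⟩
    rw [Matrix.toLin'_apply, hmul, Fintype.sum_sum_type]
    apply W.add_mem
    · apply W.sum_mem
      intro i _
      rw [hv i, zero_smul]
      exact W.zero_mem
    · exact W.sum_mem (fun i _ => W.smul_mem _ (hw i))
  have hsurj : Function.Surjective (Matrix.toLin' A) := by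
    intro v
    refine ⟨(((⟨A, hA⟩ : ↥(Matrix.symplecticGroup (Fin d) F))⁻¹ :
      ↥(Matrix.symplecticGroup (Fin d) F)) : Matrix (Fin d ⊕ Fin d) (Fin d ⊕ Fin d) F) *ᵥ v, ?_⟩
    rw [Matrix.toLin'_apply, Matrix.mulVec_mulVec]
    have h3 : A * (((⟨A, hA⟩ : ↥(Matrix.symplecticGroup (Fin d) F))⁻¹ :
      ↥(Matrix.symplecticGroup (Fin d) F)) : Matrix (Fin d ⊕ Fin d) (Fin d ⊕ Fin d) F) = 1 :=
      congrArg Subtype.val (mul_inv_cancel (⟨A, hA⟩ : ↥(Matrix.symplecticGroup (Fin d) F)))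
    rw [h3, Matrix.one_mulVec]
  have hdec : ∀ v, ∃ a ∈ (U0 d F).map (Matrix.toLin' A), ∃ b ∈ (W0 d F).map (Matrix.toLin' A),
      a + b = v := by
    intro v
    obtain ⟨v', rfl⟩ := hsurj v
    have hv : v' ∈ U0 d F ⊔ W0 d F := by rw [(isCompl_std d F).sup_eq_top]; trivial
    obtain ⟨a, ha, b, hb, rfl⟩ := Submodule.mem_sup.1 hv
    exact ⟨_, ⟨a, ha, rfl⟩, _, ⟨b, hb, rfl⟩, (map_add _ _ _).symm⟩
  refine ⟨⟨A, hA⟩, le_antisymm hUle ?_, le_antisymm hWle ?_⟩
  · intro v hv
    obtain ⟨a, ha, b, hb, rfl⟩ := hdec v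
    have hb0 : b = 0 := by
      have h5 : b ∈ U ⊓ W := ⟨by
        have := U.sub_mem hv (hUle ha)
        simpa using this, hWle hb⟩
      rw [hc.inf_eq_bot] at h5
      exact h5
    rw [hb0, add_zero]
    exact ha
  · intro v hv
    obtain ⟨a, ha, b, hb, rfl⟩ := hdec v
    have ha0 : a = 0 := by
      have h5 : a ∈ U ⊓ W := ⟨hUle ha, by
        have := W.sub_mem hv (hWle hb)
        simpa using this⟩
      rw [hc.inf_eq_bot] at h5
      exact h5
    rw [ha0, zero_add]
    exact hb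

theorem actL_toLin (g : ↥(Matrix.symplecticGroup (Fin d) F)) :
    (actL (Cfsg.spToMat d F) g).toLinearMap
      = Matrix.toLin' (g : Matrix (Fin d ⊕ Fin d) (Fin d ⊕ Fin d) F) := rfl

/-- the action on pairs of subspaces -/
noncomputable def mapP (g : ↥(Matrix.symplecticGroup (Fin d) F))
    (P : Submodule F (Fin d ⊕ Fin d → F) × Submodule F (Fin d ⊕ Fin d → F)) :
    Submodule F (Fin d ⊕ Fin d → F) × Submodule F (Fin d ⊕ Fin d → F) :=
  (P.1.map (Matrix.toLin' (g : Matrix (Fin d ⊕ Fin d) (Fin d ⊕ Fin d) F)),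
    P.2.map (Matrix.toLin' (g : Matrix (Fin d ⊕ Fin d) (Fin d ⊕ Fin d) F)))

theorem mapP_mul (a b : ↥(Matrix.symplecticGroup (Fin d) F))
    (P : Submodule F (Fin d ⊕ Fin d → F) × Submodule F (Fin d ⊕ Fin d → F)) :
    mapP (a * b) P = mapP a (mapP b P) := by
  unfold mapP
  simp only [← Submodule.map_comp, ← Matrix.toLin'_mul]
  rfl

theorem mapP_one (P : Submodule F (Fin d ⊕ Fin d → F) × Submodule F (Fin d ⊕ Fin d → F)) :
    mapP 1 P = P := by
  unfold mapP
  have : ((1 : ↥(Matrix.symplecticGroup (Fin d) F)) : Matrix (Fin d ⊕ Fin d) (Fin d ⊕ Fin d) F)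
      = 1 := rfl
  rw [this, Matrix.toLin'_one, Submodule.map_id, Submodule.map_id]

theorem card_pairs [Fintype F] :
    Nat.card (GL (Fin d) F) * Nat.card {P : Submodule F (Fin d ⊕ Fin d → F) ×
      Submodule F (Fin d ⊕ Fin d → F) // IsCompl P.1 P.2 ∧
      (∀ u ∈ P.1, ∀ v ∈ P.1, Cfsg.sympForm d F u v = 0) ∧
      (∀ u ∈ P.2, ∀ v ∈ P.2, Cfsg.sympForm d F u v = 0)}
      = Nat.card ↥(Matrix.symplecticGroup (Fin d) F) := by
  let φ : ↥(Matrix.symplecticGroup (Fin d) F) →
      Submodule F (Fin d ⊕ Fin d → F) × Submodule F (Fin d ⊕ Fin d → F) :=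
    fun g => mapP g (U0 d F, W0 d F)
  have hφ : ∀ a g, φ g = φ a ↔ φ (a⁻¹ * g) = φ 1 := by
    intro a g
    constructor
    · intro h
      show mapP (a⁻¹ * g) _ = mapP 1 _
      rw [mapP_mul]
      have h' : mapP g (U0 d F, W0 d F) = mapP a (U0 d F, W0 d F) := h
      rw [h', ← mapP_mul, inv_mul_cancel]
    · intro h
      have h' : mapP (a⁻¹ * g) (U0 d F, W0 d F) = mapP 1 (U0 d F, W0 d F) := h
      show mapP g _ = mapP a _
      have e : g = a * (a⁻¹ * g) := by group
      conv_lhs => rw [e, mapP_mul, h', mapP_one]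
  have h1 := card_subgroup_mul_card_range φ hφ
    (Cfsg.stabilizing (Cfsg.spToMat d F) {v : Fin d ⊕ Fin d → F | ∀ i : Fin d, v (Sum.inr i) = 0} ⊓
      Cfsg.stabilizing (Cfsg.spToMat d F) {v : Fin d ⊕ Fin d → F | ∀ i : Fin d, v (Sum.inl i) = 0})
    {φ 1} (by
      intro g
      rw [Subgroup.mem_inf, Set.mem_singleton_iff]
      have e1 := mem_stabilizing_iff_map (Cfsg.spToMat d F) (U0 d F) g
      have e2 := mem_stabilizing_iff_map (Cfsg.spToMat d F) (W0 d F) g
      rw [actL_toLin] at e1 e2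
      have e3 : φ 1 = (U0 d F, W0 d F) := mapP_one _
      rw [e3]
      constructor
      · rintro ⟨a1, a2⟩
        exact Prod.ext (e1.1 a1) (e2.1 a2)
      · intro h
        exact ⟨e1.2 (congrArg Prod.fst h), e2.2 (congrArg Prod.snd h)⟩)
    (by
      rintro _ rfl
      exact ⟨1, rfl⟩)
  obtain ⟨e⟩ := Cfsg.Agent.S0778.result (F := F) d
  rw [Nat.card_congr e.toEquiv] at h1
  have h2 : Nat.card ↥({φ 1} : Set (Submodule F (Fin d ⊕ Fin d → F) ×
      Submodule F (Fin d ⊕ Fin d → F))) = 1 := by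
    simp
  rw [h2, one_mul] at h1
  rw [← h1]
  congr 1
  have h3 : Set.range φ = {P : Submodule F (Fin d ⊕ Fin d → F) ×
      Submodule F (Fin d ⊕ Fin d → F) | IsCompl P.1 P.2 ∧
      (∀ u ∈ P.1, ∀ v ∈ P.1, Cfsg.sympForm d F u v = 0) ∧
      (∀ u ∈ P.2, ∀ v ∈ P.2, Cfsg.sympForm d F u v = 0)} := by
    ext P
    constructor
    · rintro ⟨g, rfl⟩
      refine ⟨?_, ?_, ?_⟩
      · have := (Submodule.orderIsoMapComap (actL (Cfsg.spToMat d F) g)).isCompl (isCompl_std d F)
        exact this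
      · rintro _ ⟨u, hu, rfl⟩ _ ⟨v, hv, rfl⟩
        rw [Matrix.toLin'_apply, Matrix.toLin'_apply, sp_preserves]
        exact ti_U0 d F u hu v hv
      · rintro _ ⟨u, hu, rfl⟩ _ ⟨v, hv, rfl⟩
        rw [Matrix.toLin'_apply, Matrix.toLin'_apply, sp_preserves]
        exact ti_W0 d F u hu v hv
    · rintro ⟨hc, hU, hW⟩
      obtain ⟨g, hg1, hg2⟩ := exists_sp hc hU hW
      exact ⟨g, Prod.ext hg1 hg2⟩
  rw [h3]
  rfl

end Cfsg.Agent.Lib.Helper38.LagPair
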