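import Cfsg.Agent.Lib.Helper38.LagPairA
import Cfsg.Agent.S0245

set_option autoImplicit false

/-! Arithmetic of the number of pairs of complementary totally isotropic subspaces. -/

namespace Cfsg.Agent.Lib.Helper38.LagPair

open Matrix Module Finset

theorem prod_gl (q d : ℕ) (hq : 1 ≤ q) : ∏ i ∈ range d, (q ^ d - q ^ i)
    = (∏ i ∈ range d, q ^ i) * ∏ j ∈ range d, (q ^ (j + 1) - 1) := by
  rw [← Finset.prod_range_reflect (fun j => q ^ (j + 1) - 1) d, ← Finset.prod_mul_distrib]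
  apply Finset.prod_congr rfl
  intro i hi
  have hi' := Finset.mem_range.1 hi
  have e : d - 1 - i + 1 = d - i := by omega
  rw [e, Nat.mul_sub, mul_one, ← pow_add]
  congr 2
  omega

theorem prod_sp (q d : ℕ) (hq : 1 ≤ q) : ∏ i ∈ range d, (q ^ (2 * (i + 1)) - 1)
    = (∏ j ∈ range d, (q ^ (j + 1) - 1)) * ∏ j ∈ range d, (q ^ (j + 1) + 1) := by
  rw [← Finset.prod_mul_distrib]
  apply Finset.prod_congr rfl
  intro i _
  have h1 : 1 ≤ q ^ (i + 1) := Nat.one_le_pow _ _ hq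
  have e : q ^ (2 * (i + 1)) = q ^ (i + 1) * q ^ (i + 1) := by rw [two_mul, pow_add]
  rw [e]
  generalize q ^ (i + 1) = x at h1
  obtain ⟨y, rfl⟩ : ∃ y, x = y + 1 := ⟨x - 1, by omega⟩
  simp only [Nat.add_sub_cancel]
  have : (y + 1) * (y + 1) = y * (y + 1 + 1) + 1 := by ring
  rw [this, Nat.add_sub_cancel]

variable {F : Type*} [Field F] [Fintype F]

theorem card_pairs_mul (d : ℕ) :
    Nat.card {P : Submodule F (Fin d ⊕ Fin d → F) ×
      Submodule F (Fin d ⊕ Fin d → F) // IsCompl P.1 P.2 ∧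
      (∀ u ∈ P.1, ∀ v ∈ P.1, Cfsg.sympForm d F u v = 0) ∧
      (∀ u ∈ P.2, ∀ v ∈ P.2, Cfsg.sympForm d F u v = 0)} * ∏ i ∈ range d, Fintype.card F ^ i
      = Fintype.card F ^ (d ^ 2) * ∏ j ∈ range d, (Fintype.card F ^ (j + 1) + 1) := by
  have hq : 1 < Fintype.card F := Fintype.one_lt_card
  have h1 := card_pairs (F := F) (d := d)
  rw [Cfsg.Agent.S0245.result (F := F) rfl d, Matrix.card_GL_field,
    Fin.prod_univ_eq_prod_range (fun i => Fintype.card F ^ d - Fintype.card F ^ i) d,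
    prod_gl _ _ hq.le, prod_sp _ _ hq.le] at h1
  have hG : 0 < ∏ j ∈ range d, (Fintype.card F ^ (j + 1) - 1) := by
    apply Finset.prod_pos
    intro j _
    have : 1 < Fintype.card F ^ (j + 1) := Nat.one_lt_pow (by omega) hq
    omega
  apply Nat.eq_of_mul_eq_mul_left hG
  rw [← mul_assoc, ← mul_assoc] at *
  linarith [h1]

/-- the arithmetic consequence -/
theorem exists_dvd_of_dvd (d : ℕ) (hd : 1 ≤ d) (hodd : Odd (Fintype.card F)) (r : ℕ)
    (hr : r.Prime) (hrq : ¬ r ∣ Fintype.card F)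
    (h : r ∣ Nat.card {P : Submodule F (Fin d ⊕ Fin d → F) ×
      Submodule F (Fin d ⊕ Fin d → F) // IsCompl P.1 P.2 ∧
      (∀ u ∈ P.1, ∀ v ∈ P.1, Cfsg.sympForm d F u v = 0) ∧
      (∀ u ∈ P.2, ∀ v ∈ P.2, Cfsg.sympForm d F u v = 0)} / 2) :
    ∃ j < d, r ∣ Fintype.card F ^ (j + 1) + 1 := by
  have h1 := card_pairs_mul (F := F) d
  set N := Nat.card {P : Submodule F (Fin d ⊕ Fin d → F) ×
      Submodule F (Fin d ⊕ Fin d → F) // IsCompl P.1 P.2 ∧
      (∀ u ∈ P.1, ∀ v ∈ P.1, Cfsg.sympForm d F u v = 0) ∧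
      (∀ u ∈ P.2, ∀ v ∈ P.2, Cfsg.sympForm d F u v = 0)} with hN
  have hE : Odd (∏ i ∈ range d, Fintype.card F ^ i) := by
    apply Finset.prod_induction _ Odd (fun a b ha hb => ha.mul hb) odd_one
    intro i _
    exact hodd.pow
  have hH : Even (∏ j ∈ range d, (Fintype.card F ^ (j + 1) + 1)) := by
    rw [even_iff_two_dvd]
    apply dvd_trans _ (Finset.dvd_prod_of_mem _ (Finset.mem_range.2 hd))
    rw [← even_iff_two_dvd]
    exact (hodd.pow).add_one
  have hNe : Even N := by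
    have h2 : Even (N * ∏ i ∈ range d, Fintype.card F ^ i) := by
      rw [h1]
      exact hH.mul_left _
    rcases Nat.even_mul.1 h2 with h3 | h3
    · exact h3
    · exact absurd hE (Nat.not_odd_iff_even.2 h3)
  have hrN : r ∣ N := by
    obtain ⟨c, hc⟩ := hNe
    have : N / 2 = c := by omega
    rw [this] at h
    rw [hc]
    exact dvd_add h h
  have h3 : r ∣ Fintype.card F ^ (d ^ 2) * ∏ j ∈ range d, (Fintype.card F ^ (j + 1) + 1) := by
    rw [← h1]
    exact dvd_mul_of_dvd_left hrN _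
  rcases (Nat.Prime.dvd_mul hr).1 h3 with h4 | h4
  · exact absurd (hr.dvd_of_dvd_pow h4) hrq
  · obtain ⟨j, hj, hj2⟩ := (Prime.dvd_finsetProd_iff hr.prime _).1 h4
    exact ⟨j, Finset.mem_range.1 hj, hj2⟩

theorem order_even_le (d : ℕ) (r : ℕ) [Fact r.Prime] (hr2 : r ≠ 2) (q : ℕ)
    (h : ∃ j < d, r ∣ q ^ (j + 1) + 1) :
    Even (orderOf (q : ZMod r)) ∧ orderOf (q : ZMod r) ≤ 2 * d := by
  obtain ⟨j, hj, hjr⟩ := h
  have h1 : (q : ZMod r) ^ (j + 1) = -1 := by
    have := (ZMod.natCast_eq_zero_iff _ r).2 hjr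
    push_cast at this
    linear_combination this
  have h2 : (q : ZMod r) ^ (2 * (j + 1)) = 1 := by
    rw [mul_comm, pow_mul, h1]
    norm_num
  have h3 := orderOf_dvd_of_pow_eq_one h2
  have hne : (1 : ZMod r) ≠ -1 := by
    intro h
    have h2 : ((2 : ℕ) : ZMod r) = 0 := by
      push_cast
      linear_combination h
    rw [ZMod.natCast_eq_zero_iff] at h2
    exact hr2 ((Nat.prime_dvd_prime_iff_eq Fact.out Nat.prime_two).1 h2)
  constructor
  · by_contra hcon
    rw [Nat.not_even_iff_odd] at hcon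
    have h4 : orderOf (q : ZMod r) ∣ j + 1 :=
      (Nat.Coprime.dvd_mul_left (Nat.Coprime.symm (Nat.coprime_two_left.2 hcon))).1 h3
    have h5 := orderOf_dvd_iff_pow_eq_one.1 h4
    exact hne (h5.symm.trans h1)
  · have := Nat.le_of_dvd (by omega) h3
    omega

end Cfsg.Agent.Lib.Helper38.LagPair
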