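import Cfsg.Agent.Lib.Helper38.LagPairA
import Cfsg.Agent.Lib.Helper38.FpfDim
import Cfsg.Agent.Lib.Helper38.SpOrderR

set_option autoImplicit false

/-! Elements of odd prime order with a single irreducible block fix no pair of complementary
totally isotropic subspaces. -/

namespace Cfsg.Agent.Lib.Helper38.LagPair

open Polynomial Matrix Module Cfsg.Agent.Lib.Helper13 Cfsg.Agent.Lib.Helper94
  Cfsg.Agent.Lib.Helper45 Cfsg.Agent.Lib.Helper38.CycF Cfsg.Agent.Lib.Helper38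

variable {F : Type*} [Field F]

theorem finrank_ker_sub_one (p : ℕ) [hp : Fact p.Prime] [CharP F p] {r : ℕ} (hr : r.Prime)
    (hrp : r ≠ p) {ι : Type*} [Fintype ι] [DecidableEq ι] (n i : ℕ) (hn : Fintype.card ι = n)
    (μ : Multiset ↥(facs F r)) (A : Matrix ι ι F)
    (hA : HasType A (tau n i r μ)) :
    finrank F (LinearMap.ker (Matrix.toLin' A - 1)) = n - i * Multiset.card μ := by
  classical
  obtain ⟨m, pe, hpe, hT, ⟨e⟩⟩ := hA
  have hX1 : (X - 1 : F[X]) = X - C 1 := by simp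
  have h1 := cork_matMod A (X - 1)
  have h2 : cork F (MatMod A) (X - 1) = cork F (EDMod pe) (X - 1) := cork_congr F e _
  have h3 := cork_EDMod pe hpe (π := X - 1) (by rw [hX1]; exact monic_X_sub_C 1)
    (by rw [hX1]; exact irreducible_X_sub_C 1) 1
  rw [pow_one] at h3
  have h4 : (X - 1 : F[X]).natDegree = 1 := by rw [hX1]; exact natDegree_X_sub_C 1
  have h5 : (∑ j, if (pe j).1 = X - 1 then min (pe j).2 1 else 0)
      = ((tau n i r μ).map (fun x : F[X] × ℕ => if x.1 = X - 1 then min x.2 1 else 0)).sum := by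
    rw [← hT, Multiset.map_map]
    rfl
  have h6 : ((tau n i r μ).map (fun x : F[X] × ℕ => if x.1 = X - 1 then min x.2 1 else 0)).sum
      = n - i * Multiset.card μ := by
    rw [tau, Multiset.map_add, Multiset.sum_add, Multiset.map_map, Multiset.map_replicate,
      Multiset.sum_replicate]
    have h7 : (μ.map ((fun x : F[X] × ℕ => if x.1 = X - 1 then min x.2 1 else 0) ∘
        (fun P : ↥(facs F r) => ((P.1, 1) : F[X] × ℕ)))).sum = 0 := by
      apply Multiset.sum_eq_zero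
      intro x hx
      obtain ⟨P, -, rfl⟩ := Multiset.mem_map.1 hx
      simp only [Function.comp_apply]
      rw [if_neg (ne_X_sub_one p hr hrp P.2)]
    rw [h7]
    simp
  rw [h5, h6, h4, one_mul] at h3
  have h8 : aeval A (X - 1 : F[X]) = A - 1 := by simp
  rw [h2, h3, h8, hn] at h1
  have h9 := LinearMap.finrank_range_add_finrank_ker (Matrix.toLin' A - 1)
  have h10 : (A - 1).rank = finrank F (LinearMap.range (Matrix.toLin' A - 1)) := by
    have e1 : Matrix.toLin' A - 1 = (A - 1).mulVecLin := by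
      apply LinearMap.ext
      intro v
      simp
    rw [Matrix.rank, e1]
  rw [Module.finrank_fintype_fun_eq_card, hn, ← h10] at h9
  omega

variable {d : ℕ}

theorem pow_mem_of_inv {V : Type*} [AddCommGroup V] [Module F V] (B : Module.End F V)
    (U : Submodule F V) (hU : ∀ u ∈ U, B u ∈ U) (j : ℕ) : ∀ u ∈ U, (B ^ j) u ∈ U := by
  induction j with
  | zero => intro u hu; simpa using hu
  | succ j ih =>
    intro u hu
    rw [pow_succ, Module.End.mul_apply]
    exact ih _ (hU u hu)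

theorem nrm_mem_of_inv {V : Type*} [AddCommGroup V] [Module F V] (B : Module.End F V)
    (U : Submodule F V) (hU : ∀ u ∈ U, B u ∈ U) (t : ℕ) : ∀ u ∈ U, Fpf.nrm t B u ∈ U := by
  intro u hu
  rw [Fpf.nrm, LinearMap.sum_apply]
  exact U.sum_mem (fun j _ => pow_mem_of_inv B U hU j u hu)

theorem symp_pow (x : ↥(Matrix.symplecticGroup (Fin d) F)) (j : ℕ) (u v : Fin d ⊕ Fin d → F) :
    Cfsg.sympForm d F
      (((Matrix.toLin' (x : Matrix (Fin d ⊕ Fin d) (Fin d ⊕ Fin d) F) :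
        Module.End F (Fin d ⊕ Fin d → F)) ^ j) u)
      (((Matrix.toLin' (x : Matrix (Fin d ⊕ Fin d) (Fin d ⊕ Fin d) F) :
        Module.End F (Fin d ⊕ Fin d → F)) ^ j) v) = Cfsg.sympForm d F u v := by
  induction j generalizing u v with
  | zero => rfl
  | succ j ih =>
    rw [pow_succ, Module.End.mul_apply, Module.End.mul_apply, ih, Matrix.toLin'_apply,
      Matrix.toLin'_apply, sp_preserves]

/-- the moved part is not totally isotropic -/
theorem moved_not_ti (r : ℕ) (hrF : (r : F) ≠ 0) (x : ↥(Matrix.symplecticGroup (Fin d) F))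
    (hB : (Matrix.toLin' (x : Matrix (Fin d ⊕ Fin d) (Fin d ⊕ Fin d) F) :
        Module.End F (Fin d ⊕ Fin d → F)) ^ r = 1)
    (hB1 : (Matrix.toLin' (x : Matrix (Fin d ⊕ Fin d) (Fin d ⊕ Fin d) F) :
        Module.End F (Fin d ⊕ Fin d → F)) ≠ 1)
    (hti : TI (Fpf.moved r (Matrix.toLin' (x : Matrix (Fin d ⊕ Fin d) (Fin d ⊕ Fin d) F) :
        Module.End F (Fin d ⊕ Fin d → F)))) : False := by
  set B : Module.End F (Fin d ⊕ Fin d → F) :=
    Matrix.toLin' (x : Matrix (Fin d ⊕ Fin d) (Fin d ⊕ Fin d) F) with hBdef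
  apply Fpf.moved_ne_bot r hrF B hB hB1
  rw [eq_bot_iff]
  intro k hk
  rw [Submodule.mem_bot]
  apply sympForm_nondeg
  intro v
  have hv : v ∈ LinearMap.ker (B - 1) ⊔ Fpf.moved r B := by
    rw [(Fpf.isCompl_fixed_moved r hrF B hB).sup_eq_top]; trivial
  obtain ⟨c, hc, k', hk', rfl⟩ := Submodule.mem_sup.1 hv
  rw [sympForm_add_right, hti k hk k' hk', add_zero]
  rw [LinearMap.mem_ker, LinearMap.sub_apply, Module.End.one_apply, sub_eq_zero] at hc
  have h1 : Cfsg.sympForm d F (Fpf.nrm r B k) c = (r : F) * Cfsg.sympForm d F k c := by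
    rw [Fpf.nrm, LinearMap.sum_apply, ← sympB_apply, map_sum, LinearMap.sum_apply]
    have h2 : ∀ j ∈ Finset.range r, sympB d F ((B ^ j) k) c = Cfsg.sympForm d F k c := by
      intro j _
      rw [sympB_apply]
      conv_lhs => rw [← Fpf.pow_apply_of_fixed B c hc j]
      exact symp_pow x j k c
    rw [Finset.sum_congr rfl h2, Finset.sum_const, Finset.card_range, nsmul_eq_mul]
  rw [(Fpf.mem_moved r B k).1 hk, sympForm_zero_left] at h1
  exact (mul_eq_zero.1 h1.symm).resolve_left hrF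

variable [Fintype F]

theorem no_fixed_pair (r : ℕ) [Fact r.Prime] (hrF : (r : F) ≠ 0)
    (x : ↥(Matrix.symplecticGroup (Fin d) F))
    (hB : (Matrix.toLin' (x : Matrix (Fin d ⊕ Fin d) (Fin d ⊕ Fin d) F) :
        Module.End F (Fin d ⊕ Fin d → F)) ^ r = 1)
    (hB1 : (Matrix.toLin' (x : Matrix (Fin d ⊕ Fin d) (Fin d ⊕ Fin d) F) :
        Module.End F (Fin d ⊕ Fin d → F)) ≠ 1) (i : ℕ) (hi0 : 0 < i)
    (hi : i = orderOf ((Fintype.card F : ℕ) : ZMod r))
    (hdim : finrank F (LinearMap.ker (Matrix.toLin'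
      (x : Matrix (Fin d ⊕ Fin d) (Fin d ⊕ Fin d) F) - 1)) + i = 2 * d)
    (U W : Submodule F (Fin d ⊕ Fin d → F)) (hc : IsCompl U W) (hU : TI U) (hW : TI W)
    (hxU : U.map (Matrix.toLin' (x : Matrix (Fin d ⊕ Fin d) (Fin d ⊕ Fin d) F)) = U)
    (hxW : W.map (Matrix.toLin' (x : Matrix (Fin d ⊕ Fin d) (Fin d ⊕ Fin d) F)) = W) : False := by
  set B : Module.End F (Fin d ⊕ Fin d → F) :=
    Matrix.toLin' (x : Matrix (Fin d ⊕ Fin d) (Fin d ⊕ Fin d) F) with hBdef
  have hBU : ∀ u ∈ U, B u ∈ U := by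
    intro u hu
    rw [← hxU]
    exact ⟨u, hu, rfl⟩
  have hBW : ∀ u ∈ W, B u ∈ W := by
    intro u hu
    rw [← hxW]
    exact ⟨u, hu, rfl⟩
  set K := Fpf.moved r B with hK
  have hKC := Fpf.isCompl_fixed_moved r hrF B hB
  have hdK : finrank F K = i := by
    have h1 := Submodule.finrank_add_eq_of_isCompl hKC
    rw [Module.finrank_fintype_fun_eq_card, Fintype.card_sum, Fintype.card_fin] at h1
    have h2 : finrank F (LinearMap.ker (B - 1)) + i = 2 * d := hdim
    have h3 : finrank F K = finrank F (Fpf.moved r B) := rfl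
    omega
  have hsup : (K ⊓ U) ⊔ (K ⊓ W) = K := by
    apply le_antisymm (sup_le inf_le_left inf_le_left)
    intro v hv
    have hv' : v ∈ U ⊔ W := by rw [hc.sup_eq_top]; trivial
    obtain ⟨u, hu, w, hw, rfl⟩ := Submodule.mem_sup.1 hv'
    have h1 : Fpf.nrm r B u + Fpf.nrm r B w = 0 := by
      rw [← map_add]
      exact (Fpf.mem_moved r B _).1 hv
    have h2 : Fpf.nrm r B u ∈ U ⊓ W := by
      refine ⟨nrm_mem_of_inv B U hBU r u hu, ?_⟩
      have : Fpf.nrm r B u = - Fpf.nrm r B w := eq_neg_of_add_eq_zero_left h1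
      rw [this]
      exact W.neg_mem (nrm_mem_of_inv B W hBW r w hw)
    rw [hc.inf_eq_bot, Submodule.mem_bot] at h2
    have h3 : Fpf.nrm r B w = 0 := by rwa [h2, zero_add] at h1
    exact Submodule.add_mem_sup ⟨(Fpf.mem_moved r B u).2 h2, hu⟩ ⟨(Fpf.mem_moved r B w).2 h3, hw⟩
  have hinf : (K ⊓ U) ⊓ (K ⊓ W) = ⊥ := by
    rw [eq_bot_iff, ← hc.inf_eq_bot]
    exact inf_le_inf inf_le_right inf_le_right
  have hsum := Submodule.finrank_sup_add_finrank_inf_eq (K ⊓ U) (K ⊓ W)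
  rw [hsup, hinf, finrank_bot, add_zero, hdK] at hsum
  have hdiv : ∀ Z : Submodule F (Fin d ⊕ Fin d → F), (∀ z ∈ Z, B z ∈ Z) → i ∣ finrank F ↥(K ⊓ Z) := by
    intro Z hZ
    rw [hi]
    apply Fpf.orderOf_dvd_finrank r B hB
    · rintro w ⟨hw1, hw2⟩
      exact ⟨Fpf.moved_invariant r (Commute.refl B) w hw1, hZ w hw2⟩
    · rintro w ⟨hw1, -⟩ hfix
      exact Fpf.moved_fpf r hrF B w hw1 hfix
  obtain ⟨a, ha⟩ := hdiv U hBU
  obtain ⟨b, hb⟩ := hdiv W hBW
  rw [ha, hb] at hsum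
  have hab : a + b = 1 := by
    have : i * 1 = i * (a + b) := by rw [mul_one, mul_add]; exact hsum
    exact (Nat.eq_of_mul_eq_mul_left hi0 this).symm
  have hKle : K ≤ U ∨ K ≤ W := by
    rcases Nat.eq_zero_or_pos b with hb0 | hb0
    · left
      rw [hb0, mul_zero, Submodule.finrank_eq_zero] at hb
      rw [hb, sup_bot_eq] at hsup
      rw [← hsup]
      exact inf_le_right
    · right
      have ha0 : a = 0 := by omega
      rw [ha0, mul_zero, Submodule.finrank_eq_zero] at ha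
      rw [ha, bot_sup_eq] at hsup
      rw [← hsup]
      exact inf_le_right
  apply moved_not_ti r hrF x hB hB1
  rcases hKle with h | h
  · intro u hu v hv
    exact hU u (h hu) v (h hv)
  · intro u hu v hv
    exact hW u (h hu) v (h hv)

omit [Fintype F] in
theorem no_swapped_pair (hd : 1 ≤ d) (r : ℕ) (hr : Odd r)
    (B : Module.End F (Fin d ⊕ Fin d → F)) (hB : B ^ r = 1)
    (U W : Submodule F (Fin d ⊕ Fin d → F)) (hc : IsCompl U W)
    (hxU : U.map B = W) (hxW : W.map B = U) : False := by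
  have h1 : ∀ u ∈ U, (B ^ 2) u ∈ U := by
    intro u hu
    rw [pow_two, Module.End.mul_apply, ← hxW]
    refine ⟨B u, ?_, rfl⟩
    rw [← hxU]
    exact ⟨u, hu, rfl⟩
  obtain ⟨s, rfl⟩ := hr
  have h2 : (B ^ 2) ^ (s + 1) = B := by
    rw [← pow_mul]
    have : 2 * (s + 1) = (2 * s + 1) + 1 := by ring
    rw [this, pow_succ, hB, one_mul]
  have h3 : ∀ u ∈ U, B u ∈ U := by
    intro u hu
    have := pow_mem_of_inv (B ^ 2) U h1 (s + 1) u hu
    rwa [h2] at this
  have h4 : W ≤ U := by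
    rw [← hxU]
    rintro _ ⟨u, hu, rfl⟩
    exact h3 u hu
  have h5 : W = ⊥ := by
    rw [eq_bot_iff, ← hc.inf_eq_bot]
    exact le_inf h4 le_rfl
  have h6 : U = ⊥ := by rw [← hxW, h5, Submodule.map_bot]
  have h7 := hc.sup_eq_top
  rw [h5, h6, sup_bot_eq] at h7
  have : Nonempty (Fin d ⊕ Fin d) := ⟨Sum.inl ⟨0, hd⟩⟩
  exact bot_ne_top h7

end Cfsg.Agent.Lib.Helper38.LagPair
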