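import Mathlib
import Cfsg.Agent.Lib.Helper38.MultisetCount

set_option autoImplicit false

/-! Rotation orbits on the multisets of size `n` on `ZMod r`. -/

namespace Cfsg.Agent.Lib.Helper38.Rot

open Cfsg.Agent.Lib.Helper38.MCount

variable {r : ℕ}

/-- rotation of a multiset. -/
def shift (k : ZMod r) (s : Multiset (ZMod r)) : Multiset (ZMod r) := s.map (fun j => j + k)

theorem shift_zero (s : Multiset (ZMod r)) : shift 0 s = s := by
  simp [shift]

theorem shift_add (k l : ZMod r) (s : Multiset (ZMod r)) :
    shift (k + l) s = shift k (shift l s) := by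
  rw [shift, shift, shift, Multiset.map_map]
  apply Multiset.map_congr rfl
  intro j _
  simp only [Function.comp_apply]
  ring

theorem card_shift (k : ZMod r) (s : Multiset (ZMod r)) :
    Multiset.card (shift k s) = Multiset.card s := Multiset.card_map _ _

theorem shift_replicate (k : ZMod r) (n : ℕ) (j : ZMod r) :
    shift k (Multiset.replicate n j) = Multiset.replicate n (j + k) := by
  rw [shift, Multiset.map_replicate]

theorem count_shift (k : ZMod r) (s : Multiset (ZMod r)) (j : ZMod r) :
    (shift k s).count (j + k) = s.count j :=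
  Multiset.count_map_eq_count' (fun j => j + k) s (add_left_injective k) j

/-- the non-constant multisets of size `n`. -/
def S' (n r : ℕ) : Type :=
  {s : Multiset (ZMod r) // Multiset.card s = n ∧ ∀ j, s ≠ Multiset.replicate n j}

instance (n : ℕ) : AddAction (ZMod r) (S' n r) where
  vadd k s := ⟨shift k s.1, by rw [card_shift]; exact s.2.1, by
    intro j h
    apply s.2.2 (j - k)
    have h2 := congrArg (shift (-k)) h
    rw [← shift_add, neg_add_cancel, shift_zero, shift_replicate] at h2
    rw [h2, sub_eq_add_neg]⟩
  zero_vadd s := Subtype.ext (shift_zero s.1)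
  add_vadd k l s := Subtype.ext (shift_add k l s.1)

theorem vadd_val (n : ℕ) (k : ZMod r) (s : S' n r) : (k +ᵥ s).1 = shift k s.1 := rfl

variable [hr : Fact r.Prime]

instance (n : ℕ) : Finite (S' n r) := by
  have h := finite_card_eq (ZMod r) n
  have h2 : Finite {s : Multiset (ZMod r) // Multiset.card s = n} := Set.finite_coe_iff.2 h
  exact Finite.of_injective (fun s : S' n r => (⟨s.1, s.2.1⟩ :
    {s : Multiset (ZMod r) // Multiset.card s = n})) (by
      intro s t h
      exact Subtype.ext (congrArg (fun x => x.1) h))

theorem card_S' (n : ℕ) (hn : 1 ≤ n) : Nat.card (S' n r) = Nat.choose (n + r - 1) (r - 1) - r := by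
  have h1 : Nat.card (S' n r) = ({s : Multiset (ZMod r) | Multiset.card s = n} \
      Set.range (fun j : ZMod r => Multiset.replicate n j)).ncard := by
    have : {s : Multiset (ZMod r) | Multiset.card s = n ∧ ∀ j, s ≠ Multiset.replicate n j} =
      ({s : Multiset (ZMod r) | Multiset.card s = n} \
      Set.range (fun j : ZMod r => Multiset.replicate n j)) := by
      ext s
      simp only [Set.mem_ofPred_eq, Set.mem_sdiff, Set.mem_range, not_exists]
      constructor
      · rintro ⟨h1, h2⟩
        exact ⟨h1, fun j h => h2 j h.symm⟩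
      · rintro ⟨h1, h2⟩
        exact ⟨h1, fun j h => h2 j h.symm⟩
    rw [← this]
    rfl
  have hinj : Function.Injective (fun j : ZMod r => Multiset.replicate n j) := by
    intro j j' h
    have h2 : j ∈ Multiset.replicate n j' := by
      rw [← show Multiset.replicate n j = Multiset.replicate n j' from h]
      exact Multiset.mem_replicate.2 ⟨by omega, rfl⟩
    exact Multiset.eq_of_mem_replicate h2
  have hr0 : 0 < r := hr.out.pos
  rw [h1, Set.ncard_sdiff _ (Set.finite_range _), ncard_card_eq, ZMod.card,
    ← Set.image_univ, Set.ncard_image_of_injective _ hinj, Set.ncard_univ, Nat.card_zmod,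
    Nat.multichoose_eq]
  · congr 1
    rw [show r + n - 1 = n + r - 1 by omega]
    exact Nat.choose_symm_of_eq_add (by omega)
  · rintro _ ⟨j, rfl⟩
    exact Multiset.card_replicate n j

/-- a multiset fixed by a non-trivial rotation is a multiple of the full multiset. -/
theorem eq_nsmul_of_shift_eq {k : ZMod r} (hk : k ≠ 0) {s : Multiset (ZMod r)}
    (h : shift k s = s) : s = (s.count 0) • (Finset.univ : Finset (ZMod r)).val := by
  have h1 : ∀ j, s.count (j + k) = s.count j := by
    intro j
    conv_lhs => rw [← h]
    exact count_shift k s j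
  have h2 : ∀ (m : ℕ) j, s.count (j + m * k) = s.count j := by
    intro m
    induction m with
    | zero => intro j; simp
    | succ m ih =>
      intro j
      rw [Nat.cast_succ, add_mul, one_mul, ← add_assoc, h1, ih]
  ext j
  rw [Multiset.count_nsmul, Multiset.count_eq_one_of_mem Finset.univ.nodup (Finset.mem_univ j),
    mul_one]
  have h3 := h2 (j / k).val 0
  rw [ZMod.natCast_val, ZMod.cast_id', id, zero_add, div_mul_cancel₀ _ hk] at h3
  exact h3

theorem shift_nsmul_univ (k : ZMod r) (c : ℕ) :
    shift k (c • (Finset.univ : Finset (ZMod r)).val) = c • (Finset.univ : Finset (ZMod r)).val := by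
  rw [shift, Multiset.map_nsmul]
  congr 1
  exact Multiset.map_univ_val_equiv (Equiv.addRight k)

theorem card_fixedBy (n : ℕ) (hn : 1 ≤ n) {k : ZMod r} (hk : k ≠ 0) :
    Nat.card (AddAction.fixedBy (S' n r) k) = if r ∣ n then 1 else 0 := by
  have hr0 : 0 < r := hr.out.pos
  have key : ∀ s : S' n r, k +ᵥ s = s → r ∣ n ∧
      s.1 = (n / r) • (Finset.univ : Finset (ZMod r)).val := by
    intro s hs
    have h1 := eq_nsmul_of_shift_eq hk (congrArg Subtype.val hs)
    have h2 := congrArg Multiset.card h1
    rw [s.2.1, Multiset.card_nsmul, Finset.card_val, Finset.card_univ, ZMod.card] at h2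
    have h3 : n / r = s.1.count 0 := Nat.div_eq_of_eq_mul_left hr0 h2
    exact ⟨⟨_, h2.trans (mul_comm _ _)⟩, by rw [h3]; exact h1⟩
  split_ifs with hd
  · rw [Nat.card_eq_one_iff_unique]
    constructor
    · constructor
      rintro ⟨s, hs⟩ ⟨t, ht⟩
      apply Subtype.ext
      apply Subtype.ext
      rw [(key s hs).2, (key t ht).2]
    · obtain ⟨c, hc⟩ := hd
      have hc0 : 1 ≤ c := by
        rcases Nat.eq_zero_or_pos c with h | h
        · rw [h] at hc; omega
        · exact h
      refine ⟨⟨⟨c • (Finset.univ : Finset (ZMod r)).val, ?_, ?_⟩, ?_⟩⟩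
      · rw [Multiset.card_nsmul, Finset.card_val, Finset.card_univ, ZMod.card, hc, mul_comm]
      · intro j h
        have h1 := congrArg (Multiset.count (j + 1)) h
        rw [Multiset.count_nsmul, Multiset.count_eq_one_of_mem Finset.univ.nodup
          (Finset.mem_univ _), mul_one, Multiset.count_replicate, if_neg (by simp)] at h1
        omega
      · exact Subtype.ext (shift_nsmul_univ k c)
  · rw [Nat.card_eq_zero]
    left
    constructor
    rintro ⟨s, hs⟩
    exact hd (key s hs).1

theorem card_orbits (n : ℕ) (hn : 1 ≤ n) :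
    Nat.card (AddAction.orbitRel.Quotient (ZMod r) (S' n r)) * r =
      (Nat.choose (n + r - 1) (r - 1) - r) + (r - 1) * (if r ∣ n then 1 else 0) := by
  classical
  have := Fintype.ofFinite (S' n r)
  have := Fintype.ofFinite (AddAction.orbitRel.Quotient (ZMod r) (S' n r))
  have hB := AddAction.sum_card_fixedBy_eq_card_orbits_mul_card_addGroup (ZMod r) (S' n r)
  rw [ZMod.card] at hB
  rw [Nat.card_eq_fintype_card]
  have hB' : Fintype.card (AddAction.orbitRel.Quotient (ZMod r) (S' n r)) * r =
      ∑ g : ZMod r, Fintype.card (AddAction.fixedBy (S' n r) g) := by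
    rw [hB]
  rw [hB', ← Finset.add_sum_erase _ _ (Finset.mem_univ (0 : ZMod r))]
  congr 1
  · rw [← card_S' n hn, ← Nat.card_eq_fintype_card]
    apply Nat.card_congr
    exact ⟨fun s => s.1, fun s => ⟨s, zero_vadd _ s⟩, fun s => rfl, fun s => rfl⟩
  · rw [Finset.sum_congr rfl (g := fun _ => if r ∣ n then 1 else 0)]
    · rw [Finset.sum_const, Finset.card_erase_of_mem (Finset.mem_univ _), Finset.card_univ,
        ZMod.card, smul_eq_mul]
    · intro k hk
      rw [← Nat.card_eq_fintype_card]
      exact card_fixedBy n hn (Finset.ne_of_mem_erase hk)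

end Cfsg.Agent.Lib.Helper38.Rot
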