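import Mathlib
import Cfsg.Agent.Lib.Helper38.RotOrbits
import Cfsg.Agent.Lib.Helper45.SimSS
import Cfsg.Agent.Lib.Helper44.SSConj

set_option autoImplicit false

/-! Matrices whose `r`-th power is a scalar, when the field contains the `r`-th roots of unity. -/

namespace Cfsg.Agent.Lib.Helper38.Rot

open Polynomial Matrix Cfsg.Agent.Lib.Helper45 Cfsg.Agent.Lib.Helper44

variable {K : Type*} [Field K] {ι : Type*} [Fintype ι] [DecidableEq ι]

theorem charpoly_smul' (A : Matrix ι ι K) (c : K) (hc : c ≠ 0) :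
    (c • A).charpoly = C (c ^ Fintype.card ι) * A.charpoly.comp (C c⁻¹ * X) := by
  have h1 : charmatrix (c • A) =
      C c • (compRingHom (C c⁻¹ * X : K[X])).mapMatrix (charmatrix A) := by
    ext i j : 1
    rw [Matrix.smul_apply, RingHom.mapMatrix_apply, Matrix.map_apply, charmatrix_apply,
      charmatrix_apply, coe_compRingHom_apply, sub_comp, C_comp, smul_eq_mul, mul_sub,
      Matrix.smul_apply, smul_eq_mul, C_mul]
    congr 1
    by_cases hij : i = j
    · subst hij
      rw [diagonal_apply_eq, X_comp, ← mul_assoc, ← C_mul, mul_inv_cancel₀ hc, C_1, one_mul]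
    · rw [diagonal_apply_ne _ hij, zero_comp, mul_zero]
  rw [charpoly, h1, det_smul, ← RingHom.map_det, coe_compRingHom_apply, C_pow]
  rfl

theorem charpoly_smul_of_prod (A : Matrix ι ι K) (c : K) (hc : c ≠ 0) (s : Multiset K)
    (h : A.charpoly = (s.map (fun a => X - C a)).prod) :
    (c • A).charpoly = (s.map (fun a => X - C (c * a))).prod := by
  have hcard : Multiset.card s = Fintype.card ι := by
    rw [← charpoly_natDegree_eq_dim A, h, natDegree_multiset_prod_X_sub_C_eq_card]
  have h1 : (C (c ^ Fintype.card ι) : K[X]) = (s.map (fun _ => (C c : K[X]))).prod := by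
    rw [Multiset.map_const', Multiset.prod_replicate, hcard, C_pow]
  rw [charpoly_smul' A c hc, h, multiset_prod_comp, Multiset.map_map, h1, ← Multiset.prod_map_mul]
  congr 1
  apply Multiset.map_congr rfl
  intro a _
  simp only [Function.comp_apply, sub_comp, X_comp, C_comp]
  rw [mul_sub, ← mul_assoc, ← C_mul, mul_inv_cancel₀ hc, C_1, one_mul, C_mul]

variable {r : ℕ} [hr : Fact r.Prime]

/-- the characteristic polynomial with eigenvalues `ζ ^ j`, `j ∈ s`. -/
noncomputable def chi (ζ : K) (s : Multiset (ZMod r)) : K[X] :=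
  ((s.map (fun j => ζ ^ j.val)).map (fun a => X - C a)).prod

theorem natDegree_chi (ζ : K) (s : Multiset (ZMod r)) : (chi ζ s).natDegree = Multiset.card s := by
  rw [chi, natDegree_multiset_prod_X_sub_C_eq_card, Multiset.card_map]

theorem chi_injective {ζ : K} (hζ : IsPrimitiveRoot ζ r) :
    Function.Injective (chi (r := r) ζ) := by
  intro s t h
  have h1 := congrArg roots h
  rw [chi, chi, roots_multiset_prod_X_sub_C, roots_multiset_prod_X_sub_C] at h1
  refine Multiset.map_injective ?_ h1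
  intro i j hij
  exact ZMod.val_injective r (hζ.pow_inj (ZMod.val_lt i) (ZMod.val_lt j) hij)

theorem pow_val_add {ζ : K} (hζ : ζ ^ r = 1) (j k : ZMod r) :
    ζ ^ (j + k).val = ζ ^ k.val * ζ ^ j.val := by
  rw [ZMod.val_add, ← pow_eq_pow_mod _ hζ, pow_add, mul_comm]

theorem charpoly_smul_chi {ζ : K} (hζ : IsPrimitiveRoot ζ r) (A : Matrix ι ι K)
    (s : Multiset (ZMod r)) (h : A.charpoly = chi ζ s) (k : ZMod r) :
    ((ζ ^ k.val) • A).charpoly = chi ζ (shift k s) := by
  have h0 : ζ ^ k.val ≠ 0 := pow_ne_zero _ (hζ.ne_zero hr.out.ne_zero)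
  rw [charpoly_smul_of_prod A _ h0 _ h, chi, shift, Multiset.map_map, Multiset.map_map,
    Multiset.map_map]
  congr 1
  apply Multiset.map_congr rfl
  intro j _
  simp only [Function.comp_apply]
  rw [pow_val_add hζ.pow_eq_one]

theorem charpoly_smul_one (c : K) : (c • (1 : Matrix ι ι K)).charpoly = (X - C c) ^ Fintype.card ι := by
  have : c • (1 : Matrix ι ι K) = diagonal (fun _ => c) := by
    rw [← diagonal_one, ← diagonal_smul]
    congr 1
    ext
    simp
  rw [this, charpoly_diagonal, Finset.prod_const, Finset.card_univ]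

theorem chi_replicate (ζ : K) (n : ℕ) (j : ZMod r) :
    chi ζ (Multiset.replicate n j) = (X - C (ζ ^ j.val)) ^ n := by
  rw [chi, Multiset.map_replicate, Multiset.map_replicate, Multiset.prod_replicate]

theorem exists_chi_of_pow_eq_one (p : ℕ) [hp : Fact p.Prime] [CharP K p] (hrp : r ≠ p)
    {ζ : K} (hζ : IsPrimitiveRoot ζ r) (A : Matrix ι ι K) (hA : A ^ r = 1) :
    ∃ s : Multiset (ZMod r), Multiset.card s = Fintype.card ι ∧ A.charpoly = chi ζ s := by
  classical
  have hcop : r.Coprime p := (Nat.coprime_primes hr.out hp.out).2 hrp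
  have hT := typ_mem_ssTypes_of_coprime p hcop hA
  have hH := hasType_typ A
  have hch := hH.charpoly_of_mem_ssTypes hT
  have h0 : aeval A (X ^ r - 1 : K[X]) = 0 := by simp [hA]
  rw [hH.aeval_eq_zero_iff] at h0
  have key : ∀ x ∈ typ A, ∃ j : ZMod r, x.1 = X - C (ζ ^ j.val) := by
    intro x hx
    obtain ⟨h1, h2, -, h4⟩ := hT.1 x hx
    have h5 := h0 x hx
    rw [h4, pow_one, X_pow_sub_one_eq_prod hr.out.pos hζ] at h5
    obtain ⟨a, ha, hd⟩ := Prime.exists_mem_finset_dvd h2.prime h5
    rw [mem_nthRootsFinset hr.out.pos] at ha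
    obtain ⟨i, hi, rfl⟩ := hζ.eq_pow_of_pow_eq_one ha
    refine ⟨(i : ZMod r), ?_⟩
    rw [ZMod.val_natCast, Nat.mod_eq_of_lt hi]
    exact eq_of_monic_of_associated h1 (monic_X_sub_C _)
      (h2.associated_of_dvd (irreducible_X_sub_C _) hd)
  let f : K[X] × ℕ → ZMod r := fun x =>
    if h : ∃ j : ZMod r, x.1 = X - C (ζ ^ j.val) then h.choose else 0
  have hf : ∀ x ∈ typ A, x.1 = X - C (ζ ^ (f x).val) := by
    intro x hx
    have h := key x hx
    simp only [f, dif_pos h]
    exact h.choose_spec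
  have h2 : A.charpoly = chi ζ ((typ A).map f) := by
    rw [hch, chi, Multiset.map_map, Multiset.map_map]
    congr 1
    apply Multiset.map_congr rfl
    intro x hx
    exact hf x hx
  refine ⟨(typ A).map f, ?_, h2⟩
  rw [← natDegree_chi ζ, ← h2, charpoly_natDegree_eq_dim]

variable [Fintype K]

theorem coprime_mul_card_sub_one (p : ℕ) [hp : Fact p.Prime] [CharP K p] (hrp : r ≠ p) :
    (r * (Fintype.card K - 1)).Coprime p := by
  have hcop : r.Coprime p := (Nat.coprime_primes hr.out hp.out).2 hrp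
  have h2 := coprime_card_pow_sub_one (F := K) p one_ne_zero
  rw [pow_one, Nat.card_eq_fintype_card] at h2
  exact Nat.Coprime.mul_left hcop h2

theorem pow_eq_one_of_pow_eq_smul (A : Matrix ι ι K) {l : K} (hl : l ≠ 0)
    (hA : A ^ r = l • 1) : A ^ (r * (Fintype.card K - 1)) = 1 := by
  rw [pow_mul, hA, _root_.smul_pow, one_pow, FiniteField.pow_card_sub_one_eq_one l hl, one_smul]

theorem charpoly_of_pow_eq_smul (p : ℕ) [hp : Fact p.Prime] [CharP K p] (hrp : r ≠ p)
    (A : Matrix ι ι K) {l : K} (hl : ∀ b : K, b ^ r ≠ l) (hA : A ^ r = l • 1) :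
    ∃ k, k * r = Fintype.card ι ∧ A.charpoly = (X ^ r - C l) ^ k := by
  have hl0 : l ≠ 0 := by
    intro h
    exact hl 0 (by rw [zero_pow hr.out.ne_zero, h])
  have hT := typ_mem_ssTypes_of_coprime p (coprime_mul_card_sub_one p hrp)
    (pow_eq_one_of_pow_eq_smul A hl0 hA)
  have hH := hasType_typ A
  have hch := hH.charpoly_of_mem_ssTypes hT
  have hirr : Irreducible (X ^ r - C l : K[X]) := X_pow_sub_C_irreducible_of_prime hr.out hl
  have h0 : aeval A (X ^ r - C l : K[X]) = 0 := by
    simp [hA, Algebra.algebraMap_eq_smul_one]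
  rw [hH.aeval_eq_zero_iff] at h0
  have key : ∀ x ∈ (typ A).map Prod.fst, x = X ^ r - C l := by
    intro y hy
    obtain ⟨x, hx, rfl⟩ := Multiset.mem_map.1 hy
    obtain ⟨h1, h2, -, h4⟩ := hT.1 x hx
    have h5 := h0 x hx
    rw [h4, pow_one] at h5
    exact eq_of_monic_of_associated h1 (monic_X_pow_sub_C _ hr.out.ne_zero)
      (h2.associated_of_dvd hirr h5)
  rw [Multiset.eq_replicate_of_mem key, Multiset.prod_replicate] at hch
  refine ⟨_, ?_, hch⟩
  have h3 := charpoly_natDegree_eq_dim A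
  rw [hch, natDegree_pow, natDegree_X_pow_sub_C] at h3
  exact h3

theorem exists_pow_eq_smul {l : K} (hl : ∀ b : K, b ^ r ≠ l) (hd : r ∣ Fintype.card ι) :
    ∃ A : Matrix ι ι K, A ^ r = l • 1 := by
  obtain ⟨k, hk⟩ := hd
  have hirr : Irreducible (X ^ r - C l : K[X]) := X_pow_sub_C_irreducible_of_prime hr.out hl
  obtain ⟨A, hA⟩ := exists_hasType_of_valid (n := ι)
    (Multiset.replicate k ((X ^ r - C l : K[X]), 1)) (by
      intro x hx
      rw [Multiset.eq_of_mem_replicate hx]
      exact ⟨monic_X_pow_sub_C _ hr.out.ne_zero, hirr, le_rfl⟩) (by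
      rw [Multiset.map_replicate, Multiset.sum_replicate, natDegree_X_pow_sub_C, hk]
      simp [mul_comm])
  refine ⟨A, ?_⟩
  have h0 : aeval A (X ^ r - C l : K[X]) = 0 := by
    rw [hA.aeval_eq_zero_iff]
    intro x hx
    rw [Multiset.eq_of_mem_replicate hx, pow_one]
  simpa [sub_eq_zero, Algebra.algebraMap_eq_smul_one] using h0

/-- a semisimple matrix with the characteristic polynomial of a scalar is that scalar. -/
theorem eq_smul_one_of_charpoly (p : ℕ) [hp : Fact p.Prime] [CharP K p] {N : ℕ} (hN : N.Coprime p)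
    (A : Matrix ι ι K) (hA : A ^ N = 1) (c : K) (hc : c ^ N = 1)
    (h : A.charpoly = (X - C c) ^ Fintype.card ι) : A = c • 1 := by
  have hB : (c • (1 : Matrix ι ι K)) ^ N = 1 := by rw [_root_.smul_pow, one_pow, hc, one_smul]
  obtain ⟨P, hP⟩ := exists_conj_of_charpoly_eq p hN hN hA hB (by rw [h, charpoly_smul_one])
  have h1 : (P : Matrix ι ι K) * A = (P : Matrix ι ι K) * (c • 1) := by
    rw [hP]
    simp
  have h2 := congrArg (fun M => ((P⁻¹ : GL ι K) : Matrix ι ι K) * M) h1
  simp only [← Matrix.mul_assoc] at h2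
  rw [← Units.val_mul, inv_mul_cancel] at h2
  simpa using h2

end Cfsg.Agent.Lib.Helper38.Rot
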