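import Mathlib
import Cfsg.Agent.Lib.Helper38.ScalarPow

set_option autoImplicit false

/-! Classes of elements of prime order `r` in a linear group modulo scalars, when the scalars
contain the `r`-th roots of unity: group-theoretic preliminaries. -/

namespace Cfsg.Agent.Lib.Helper38.Rot

open Polynomial Matrix

section grp

variable {H : Type*} [Group H]

theorem isConj_mk_iff (g h : H) :
    IsConj (QuotientGroup.mk g : H ⧸ Subgroup.center H) (QuotientGroup.mk h) ↔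
      ∃ z ∈ Subgroup.center H, IsConj (z * g) h := by
  constructor
  · intro hc
    obtain ⟨x, hx⟩ := isConj_iff.1 hc
    obtain ⟨x, rfl⟩ := QuotientGroup.mk_surjective x
    rw [← QuotientGroup.mk_inv, ← QuotientGroup.mk_mul, ← QuotientGroup.mk_mul,
      QuotientGroup.eq] at hx
    refine ⟨_, hx, isConj_iff.2 ⟨x, ?_⟩⟩
    rw [Subgroup.mem_center_iff] at hx
    calc x * ((x * g * x⁻¹)⁻¹ * h * g) * x⁻¹
        = (x * ((x * g * x⁻¹)⁻¹ * h)) * g * x⁻¹ := by simp only [mul_assoc]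
      _ = ((x * g * x⁻¹)⁻¹ * h) * x * g * x⁻¹ := by rw [hx x]
      _ = ((x * g * x⁻¹)⁻¹ * h) * (x * g * x⁻¹) := by simp only [mul_assoc]
      _ = (x * g * x⁻¹) * ((x * g * x⁻¹)⁻¹ * h) := (hx _).symm
      _ = h := by rw [mul_inv_cancel_left]
  · rintro ⟨z, hz, hc⟩
    have h1 := (QuotientGroup.mk' (Subgroup.center H)).map_isConj hc
    have h2 : (QuotientGroup.mk' (Subgroup.center H)) (z * g) = QuotientGroup.mk g := by
      rw [map_mul, QuotientGroup.mk'_apply, QuotientGroup.mk'_apply,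
        (QuotientGroup.eq_one_iff z).2 hz, one_mul]
    rw [h2] at h1
    exact h1

theorem orderOf_mk_eq_prime_iff {r : ℕ} [Fact r.Prime] (g : H) :
    orderOf (QuotientGroup.mk g : H ⧸ Subgroup.center H) = r ↔
      g ^ r ∈ Subgroup.center H ∧ g ∉ Subgroup.center H := by
  rw [orderOf_eq_prime_iff, ← QuotientGroup.mk_pow, QuotientGroup.eq_one_iff, Ne,
    QuotientGroup.eq_one_iff]

end grp

variable {K : Type*} [Field K]

theorem smul_one_inj {n : ℕ} (hn : 1 ≤ n) {a b : K}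
    (h : a • (1 : Matrix (Fin n) (Fin n) K) = b • 1) : a = b := by
  have := congrFun (congrFun h ⟨0, hn⟩) ⟨0, hn⟩
  simpa using this

theorem exists_reps [Finite K] {r : ℕ} [hr : Fact r.Prime] (U : Subgroup Kˣ)
    (hrU : r ∣ Nat.card U) :
    ∃ ρ : ZMod r → Kˣ, ρ 0 = 1 ∧ (∀ j, ρ j ∈ U) ∧ (∀ l ∈ U, ∃ j, ∃ b ∈ U, l = b ^ r * ρ j) ∧
      (∀ j j', ∀ b ∈ U, b ^ r * ρ j = ρ j' → j = j') := by
  obtain ⟨w, hw⟩ := IsCyclic.exists_generator (α := ↥U)
  have hord : orderOf w = Nat.card U := orderOf_eq_card_of_forall_mem_zpowers hw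
  have hw' : ∀ x : ↥U, ∃ a : ℕ, w ^ a = x := by
    intro x
    have := (mem_powers_iff_mem_zpowers (x := w) (y := x)).2 (hw x)
    exact this
  refine ⟨fun j => ((w ^ j.val : ↥U) : Kˣ), by simp, fun j => (w ^ j.val).2, ?_, ?_⟩
  · intro l hl
    obtain ⟨a, ha⟩ := hw' ⟨l, hl⟩
    refine ⟨(a : ZMod r), ((w ^ (a / r) : ↥U) : Kˣ), (w ^ (a / r)).2, ?_⟩
    show l = ((w ^ (a / r) : ↥U) : Kˣ) ^ r * ((w ^ ((a : ZMod r)).val : ↥U) : Kˣ)
    rw [ZMod.val_natCast, ← Subgroup.coe_pow, ← Subgroup.coe_mul, ← pow_mul, ← pow_add, mul_comm,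
      Nat.div_add_mod, ha]
  · intro j j' b hb h
    obtain ⟨m, hm⟩ := hw' ⟨b, hb⟩
    have h1 : w ^ (m * r + j.val) = w ^ j'.val := by
      apply Subtype.ext
      rw [pow_add, pow_mul, hm]
      exact h
    rw [pow_eq_pow_iff_modEq, hord] at h1
    have h2 := (ZMod.natCast_eq_natCast_iff _ _ _).2 (h1.of_dvd hrU)
    push_cast at h2
    simpa using h2

theorem exists_enum {α : Type*} (s : Multiset α) {n : ℕ} (hs : Multiset.card s = n) :
    ∃ d : Fin n → α, (Finset.univ : Finset (Fin n)).val.map d = s := by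
  subst hs
  obtain ⟨l, rfl⟩ := Quot.exists_rep s
  refine ⟨fun i => l.get i, ?_⟩
  rw [Fin.univ_val_map]
  have : List.ofFn (fun i : Fin l.length => l.get i) = l := List.ofFn_get l
  exact congrArg _ this

end Cfsg.Agent.Lib.Helper38.Rot
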