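import Mathlib
import Cfsg.Agent.Lib.Helper38.ProjClasses

set_option autoImplicit false

/-! Classes of elements of prime order `r` in a linear group modulo scalars, when the scalars
contain the `r`-th roots of unity: the abstract count. -/

namespace Cfsg.Agent.Lib.Helper38.Rot

open Polynomial Matrix Cfsg.Agent.Lib.Helper44

/-- the hypotheses on a linear group `H` with scalars `U`. -/
structure IsSetup {K : Type*} [Field K] {n : ℕ} (r : ℕ) {H : Type*} [Group H]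
    (M : H →* Matrix (Fin n) (Fin n) K) (U : Subgroup Kˣ) (ζ : Kˣ) : Prop where
  hζU : ζ ∈ U
  hζ : IsPrimitiveRoot (ζ : K) r
  hcenter : ∀ h : H, h ∈ Subgroup.center H ↔ ∃ c ∈ U, M h = (c : K) • 1
  hscal : ∀ c ∈ U, ∃ h : H, M h = (c : K) • 1
  hconj : ∀ g h : H, IsConj g h ↔
    ∃ P : GL (Fin n) K, (P : Matrix (Fin n) (Fin n) K) * M g = M h * (P : Matrix (Fin n) (Fin n) K)
  hexA : ∀ d : Fin n → ZMod r, ∃ B : H, M B = Matrix.diagonal (fun i => (ζ : K) ^ (d i).val)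
  hexB : r ∣ n → ∀ l ∈ U, (∀ b : K, b ^ r ≠ (l : K)) → ∃ B : H, M B ^ r = (l : K) • 1
  hpow : ∀ l ∈ U, (∃ b : K, b ^ r = (l : K)) → ∃ b ∈ U, b ^ r = l

variable {K : Type*} [Field K] [Fintype K] {n r : ℕ} [hr : Fact r.Prime] {H : Type*} [Group H]
  {M : H →* Matrix (Fin n) (Fin n) K} {U : Subgroup Kˣ} {ζ : Kˣ}

omit [Fintype K] in
theorem IsSetup.exists_chi (S : IsSetup r M U ζ) (s : Multiset (ZMod r))
    (hs : Multiset.card s = n) : ∃ B : H, M B ^ r = 1 ∧ (M B).charpoly = chi (ζ : K) s := by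
  obtain ⟨d, rfl⟩ := exists_enum s hs
  obtain ⟨B, hB⟩ := S.hexA d
  refine ⟨B, ?_, ?_⟩
  · rw [hB, diagonal_pow, ← diagonal_one]
    congr 1
    ext i
    simp only [Pi.pow_apply]
    rw [← pow_mul, mul_comm, pow_mul, S.hζ.pow_eq_one, one_pow]
  · rw [hB, charpoly_diagonal, chi, Multiset.map_map, Multiset.map_map]
    rfl

omit [Fintype K] hr in
theorem charpoly_eq_of_semiconj {A B : Matrix (Fin n) (Fin n) K} (P : GL (Fin n) K)
    (h : (P : Matrix (Fin n) (Fin n) K) * A = B * (P : Matrix (Fin n) (Fin n) K)) :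
    A.charpoly = B.charpoly := by
  have h1 : B = (P : Matrix (Fin n) (Fin n) K) * A * ((P⁻¹ : GL (Fin n) K) :
      Matrix (Fin n) (Fin n) K) := by
    rw [h, Matrix.mul_assoc, ← Units.val_mul, mul_inv_cancel, Units.val_one, Matrix.mul_one]
  rw [h1, charpoly_mul_comm, ← Matrix.mul_assoc, ← Units.val_mul, inv_mul_cancel, Units.val_one,
    Matrix.one_mul]

omit [Fintype K] hr in
theorem pow_eq_smul_of_semiconj {A B : Matrix (Fin n) (Fin n) K} (P : GL (Fin n) K)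
    (h : (P : Matrix (Fin n) (Fin n) K) * A = B * (P : Matrix (Fin n) (Fin n) K)) (k : ℕ) (a : K)
    (hA : A ^ k = a • 1) : B ^ k = a • 1 := by
  have h1 : SemiconjBy (P : Matrix (Fin n) (Fin n) K) (A ^ k) (B ^ k) :=
    SemiconjBy.pow_right h k
  have h2 : (P : Matrix (Fin n) (Fin n) K) * (a • 1) = B ^ k * (P : Matrix (Fin n) (Fin n) K) := by
    rw [← hA]; exact h1
  have h3 : B ^ k = (P : Matrix (Fin n) (Fin n) K) * (a • 1) * ((P⁻¹ : GL (Fin n) K) :
      Matrix (Fin n) (Fin n) K) := by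
    rw [h2, Matrix.mul_assoc, ← Units.val_mul, mul_inv_cancel, Units.val_one, Matrix.mul_one]
  rw [h3, Matrix.mul_smul, Matrix.mul_one, Matrix.smul_mul, ← Units.val_mul, mul_inv_cancel,
    Units.val_one]

omit [Fintype K] hr in
theorem IsSetup.of_isConj_mk (S : IsSetup r M U ζ) (hn : 1 ≤ n) {g h : H} {a b : K}
    (hg : M g ^ r = a • 1) (hh : M h ^ r = b • 1)
    (hc : IsConj (QuotientGroup.mk g : H ⧸ Subgroup.center H) (QuotientGroup.mk h)) :
    ∃ c ∈ U, (c : K) ^ r * a = b ∧ ((c : K) • M g).charpoly = (M h).charpoly := by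
  obtain ⟨z, hz, hzc⟩ := (isConj_mk_iff g h).1 hc
  obtain ⟨c, hcU, hcz⟩ := (S.hcenter z).1 hz
  obtain ⟨P, hP⟩ := (S.hconj _ _).1 hzc
  rw [map_mul, hcz, Matrix.smul_mul, Matrix.one_mul] at hP
  refine ⟨c, hcU, ?_, charpoly_eq_of_semiconj P hP⟩
  have h1 := pow_eq_smul_of_semiconj P hP r ((c : K) ^ r * a) (by
    rw [_root_.smul_pow, hg, smul_smul])
  rw [hh] at h1
  exact (smul_one_inj hn h1).symm

theorem IsSetup.isConj_mk (S : IsSetup r M U ζ) (p : ℕ) [hp : Fact p.Prime] [CharP K p]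
    (hrp : r ≠ p) {g h : H} {a b : K} (ha : a ≠ 0) (hb : b ≠ 0)
    (hg : M g ^ r = a • 1) (hh : M h ^ r = b • 1) (c : Kˣ) (hc : c ∈ U)
    (hch : ((c : K) • M g).charpoly = (M h).charpoly) :
    IsConj (QuotientGroup.mk g : H ⧸ Subgroup.center H) (QuotientGroup.mk h) := by
  obtain ⟨z, hz⟩ := S.hscal c hc
  refine (isConj_mk_iff g h).2 ⟨z, (S.hcenter z).2 ⟨c, hc, hz⟩, (S.hconj _ _).2 ?_⟩
  rw [map_mul, hz, Matrix.smul_mul, Matrix.one_mul]
  have h1 : ((c : K) • M g) ^ r = ((c : K) ^ r * a) • 1 := by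
    rw [_root_.smul_pow, hg, smul_smul]
  exact exists_conj_of_charpoly_eq p (coprime_mul_card_sub_one p hrp)
    (coprime_mul_card_sub_one p hrp)
    (pow_eq_one_of_pow_eq_smul _ (mul_ne_zero (pow_ne_zero _ c.ne_zero) ha) h1)
    (pow_eq_one_of_pow_eq_smul _ hb hh) hch

omit [Fintype K] in
theorem IsSetup.orderOf_mk (S : IsSetup r M U ζ) {g : H} {a : Kˣ} (ha : a ∈ U)
    (hg : M g ^ r = (a : K) • 1) (hns : ∀ c ∈ U, M g ≠ (c : K) • 1) :
    orderOf (QuotientGroup.mk g : H ⧸ Subgroup.center H) = r := by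
  rw [orderOf_mk_eq_prime_iff]
  constructor
  · exact (S.hcenter _).2 ⟨a, ha, by rw [map_pow, hg]⟩
  · intro h
    obtain ⟨c, hc, h1⟩ := (S.hcenter _).1 h
    exact hns c hc h1

end Cfsg.Agent.Lib.Helper38.Rot
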