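import Mathlib
import Cfsg.Agent.Lib.Helper38.ProjClasses2

set_option autoImplicit false

/-! Classes of elements of prime order `r` in a linear group modulo scalars: the count. -/

namespace Cfsg.Agent.Lib.Helper38.Rot

open Polynomial Matrix Cfsg.Agent.Lib.Helper44

variable {K : Type*} [Field K] [Fintype K] {n r : ℕ} [hr : Fact r.Prime] {H : Type*} [Group H]
  {M : H →* Matrix (Fin n) (Fin n) K} {U : Subgroup Kˣ} {ζ : Kˣ}

theorem arith_aux (Ω c r f : ℕ) (hr : 2 ≤ r) (hf : f = 0 ∨ f = 1) (h : Ω * r = c + (r - 1) * f) :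
    Ω + (r - 1) * f = (c - f) / r + r * f := by
  rcases hf with rfl | rfl
  · simp only [mul_zero, add_zero, Nat.sub_zero] at h ⊢
    rw [← h, Nat.mul_div_cancel _ (by omega)]
  · rw [mul_one] at h
    rcases Nat.eq_zero_or_pos Ω with h0 | h0
    · rw [h0] at h; omega
    · obtain ⟨Ω', rfl⟩ : ∃ Ω', Ω = Ω' + 1 := ⟨Ω - 1, by omega⟩
      have h1 : c - 1 = Ω' * r := by
        rw [add_mul, one_mul] at h
        omega
      rw [h1, Nat.mul_div_cancel _ (by omega)]
      omega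

theorem card_J (n : ℕ) : Nat.card {j : ZMod r // j ≠ 0 ∧ r ∣ n} = (r - 1) * (if r ∣ n then 1 else 0) := by
  classical
  split_ifs with h
  · rw [mul_one, Nat.card_eq_fintype_card, Fintype.card_subtype]
    have : (Finset.univ.filter (fun j : ZMod r => j ≠ 0 ∧ r ∣ n)) = Finset.univ.erase 0 := by
      ext j
      simp [h]
    rw [this, Finset.card_erase_of_mem (Finset.mem_univ _), Finset.card_univ, ZMod.card]
  · rw [mul_zero, Nat.card_eq_zero]
    left
    exact ⟨fun j => h j.2.2⟩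

theorem IsSetup.card_classes (S : IsSetup r M U ζ) (p : ℕ) [hp : Fact p.Prime] [CharP K p]
    (hrp : r ≠ p) (hn : 1 ≤ n) :
    Nat.card {C : ConjClasses (H ⧸ Subgroup.center H) //
      ∃ g : H ⧸ Subgroup.center H, ConjClasses.mk g = C ∧ orderOf g = r} =
      (Nat.choose (n + r - 1) (r - 1) - r - (if r ∣ n then 1 else 0)) / r +
        r * (if r ∣ n then 1 else 0) := by
  classical
  have hζ := S.hζ
  have hrU : r ∣ Nat.card U := by
    have h1 : orderOf (⟨ζ, S.hζU⟩ : ↥U) = r := by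
      rw [Subgroup.orderOf_mk, ← orderOf_units, ← hζ.eq_orderOf]
    rw [← h1]
    exact orderOf_dvd_natCard _
  obtain ⟨ρ, hρ0, hρU, hρ1, hρ2⟩ := exists_reps U hrU
  have hnp : ∀ j : ZMod r, j ≠ 0 → ∀ b : K, b ^ r ≠ (ρ j : K) := by
    intro j hj b hb
    obtain ⟨b', hb'U, hb'⟩ := S.hpow (ρ j) (hρU j) ⟨b, hb⟩
    exact hj (hρ2 0 j b' hb'U (by rw [hρ0, mul_one, hb'])).symm
  have hA := fun s : S' n r => S.exists_chi s.1 s.2.1
  choose gA hgA1 hgA2 using hA
  have hB := fun j : {j : ZMod r // j ≠ 0 ∧ r ∣ n} =>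
    S.hexB j.2.2 (ρ j.1) (hρU j.1) (hnp j.1 j.2.1)
  choose gB hgB using hB
  have hgA1' : ∀ s, M (gA s) ^ r = (((1 : Kˣ) : K)) • 1 := by
    intro s
    rw [hgA1, Units.val_one, one_smul]
  have key_scalar : ∀ (A : Matrix (Fin n) (Fin n) K) (s : Multiset (ZMod r)) (c : K),
      A ^ r = 1 → A.charpoly = chi (ζ : K) s → A = c • 1 → ∃ j, s = Multiset.replicate n j := by
    intro A s c h1 h2 h3
    rw [h3, _root_.smul_pow, one_pow] at h1
    have h4 : c ^ r = 1 := smul_one_inj hn (by rw [h1, one_smul])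
    obtain ⟨i, hi, rfl⟩ := hζ.eq_pow_of_pow_eq_one h4
    refine ⟨(i : ZMod r), chi_injective hζ ?_⟩
    rw [← h2, h3, charpoly_smul_one, chi_replicate, ZMod.val_natCast, Nat.mod_eq_of_lt hi,
      Fintype.card_fin]
  have nsA : ∀ s : S' n r, ∀ c ∈ U, M (gA s) ≠ (c : K) • 1 := by
    intro s c _ h
    obtain ⟨j, hj⟩ := key_scalar _ _ _ (hgA1 s) (hgA2 s) h
    exact s.2.2 j hj
  have nsB : ∀ j, ∀ c ∈ U, M (gB j) ≠ (c : K) • 1 := by
    intro j c _ h
    have h1 := hgB j
    rw [h, _root_.smul_pow, one_pow] at h1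
    exact hnp j.1 j.2.1 c (smul_one_inj hn h1)
  have ordA := fun s => S.orderOf_mk (one_mem U) (hgA1' s) (nsA s)
  have ordB := fun j => S.orderOf_mk (hρU _) (hgB j) (nsB j)
  let Φ : AddAction.orbitRel.Quotient (ZMod r) (S' n r) ⊕ {j : ZMod r // j ≠ 0 ∧ r ∣ n} →
      {C : ConjClasses (H ⧸ Subgroup.center H) //
        ∃ g : H ⧸ Subgroup.center H, ConjClasses.mk g = C ∧ orderOf g = r} :=
    Sum.elim (fun ω => ⟨ConjClasses.mk (QuotientGroup.mk (gA ω.out)), _, rfl, ordA ω.out⟩)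
      (fun j => ⟨ConjClasses.mk (QuotientGroup.mk (gB j)), _, rfl, ordB j⟩)
  have hinj : Function.Injective Φ := by
    rintro (ω | j) (ω' | j') hxy
    · have h1 := ConjClasses.mk_eq_mk_iff_isConj.1 (congrArg Subtype.val hxy)
      obtain ⟨c, hcU, hc1, hc2⟩ := S.of_isConj_mk hn (hgA1' _) (hgA1' _) h1
      rw [Units.val_one, mul_one] at hc1
      obtain ⟨i, hi, hic⟩ := hζ.eq_pow_of_pow_eq_one hc1
      have h2 := charpoly_smul_chi hζ _ _ (hgA2 ω.out) (i : ZMod r)
      rw [ZMod.val_natCast, Nat.mod_eq_of_lt hi, hic, hc2, hgA2] at h2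
      have h3 := chi_injective hζ h2
      congr 1
      rw [← Quotient.out_eq ω, ← Quotient.out_eq ω']
      symm
      apply Quotient.sound
      exact ⟨(i : ZMod r), Subtype.ext h3.symm⟩
    · exfalso
      have h1 := ConjClasses.mk_eq_mk_iff_isConj.1 (congrArg Subtype.val hxy)
      obtain ⟨c, hcU, hc1, -⟩ := S.of_isConj_mk hn (hgA1' _) (hgB _) h1
      rw [Units.val_one, mul_one] at hc1
      exact hnp j'.1 j'.2.1 c hc1
    · exfalso
      have h1 := ConjClasses.mk_eq_mk_iff_isConj.1 (congrArg Subtype.val hxy)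
      obtain ⟨c, hcU, hc1, -⟩ := S.of_isConj_mk hn (hgB _) (hgA1' _) h1
      apply j.2.1
      apply hρ2 j.1 0 c hcU
      apply Units.ext
      rw [hρ0]
      push_cast
      exact hc1
    · have h1 := ConjClasses.mk_eq_mk_iff_isConj.1 (congrArg Subtype.val hxy)
      obtain ⟨c, hcU, hc1, -⟩ := S.of_isConj_mk hn (hgB _) (hgB _) h1
      congr 1
      apply Subtype.ext
      apply hρ2 j.1 j'.1 c hcU
      apply Units.ext
      push_cast
      exact hc1
  have hsurj : Function.Surjective Φ := by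
    rintro ⟨C, g, rfl, hg⟩
    obtain ⟨g, rfl⟩ := QuotientGroup.mk_surjective g
    obtain ⟨hg1, hg2⟩ := (orderOf_mk_eq_prime_iff g).1 hg
    obtain ⟨l, hlU, hl⟩ := (S.hcenter _).1 hg1
    rw [map_pow] at hl
    obtain ⟨j, b, hbU, hlb⟩ := hρ1 l hlU
    have hA' : (((b⁻¹ : Kˣ) : K) • M g) ^ r = (ρ j : K) • 1 := by
      rw [_root_.smul_pow, hl, smul_smul, hlb]
      congr 1
      push_cast
      rw [← mul_assoc, ← mul_pow, inv_mul_cancel₀ b.ne_zero, one_pow, one_mul]
    by_cases hj : j = 0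
    · subst hj
      rw [hρ0, Units.val_one, one_smul] at hA'
      obtain ⟨s, hs1, hs2⟩ := exists_chi_of_pow_eq_one p hrp hζ _ hA'
      rw [Fintype.card_fin] at hs1
      have hs3 : ∀ j, s ≠ Multiset.replicate n j := by
        rintro j rfl
        have h1 := eq_smul_one_of_charpoly p ((Nat.coprime_primes hr.out hp.out).2 hrp) _ hA'
          ((ζ : K) ^ j.val) (by rw [← pow_mul, mul_comm, pow_mul, hζ.pow_eq_one, one_pow])
          (by rw [hs2, chi_replicate, Fintype.card_fin])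
        apply hg2
        refine (S.hcenter g).2 ⟨b * ζ ^ j.val, mul_mem hbU (pow_mem S.hζU _), ?_⟩
        have h2 := congrArg (fun X => (b : K) • X) h1
        simp only [smul_smul] at h2
        rw [Units.val_inv_eq_inv_val, mul_inv_cancel₀ b.ne_zero, one_smul] at h2
        rw [h2]
        push_cast
        rfl
      let s' : S' n r := ⟨s, hs1, hs3⟩
      let ω : AddAction.orbitRel.Quotient (ZMod r) (S' n r) := Quotient.mk _ s'
      obtain ⟨k, hk⟩ : ω.out ∈ AddAction.orbit (ZMod r) s' :=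
        @Quotient.mk_out _ (AddAction.orbitRel (ZMod r) (S' n r)) s'
      refine ⟨Sum.inl ω, Subtype.ext ?_⟩
      apply ConjClasses.mk_eq_mk_iff_isConj.2
      apply IsConj.symm
      apply S.isConj_mk p hrp l.ne_zero one_ne_zero hl (by rw [hgA1, one_smul]) (ζ ^ k.val * b⁻¹)
        (mul_mem (pow_mem S.hζU _) (inv_mem hbU))
      have h2 := charpoly_smul_chi hζ _ _ hs2 k
      rw [smul_smul] at h2
      rw [hgA2, ← hk]
      push_cast
      push_cast at h2
      exact h2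
    · obtain ⟨k, hk1, hk2⟩ := charpoly_of_pow_eq_smul p hrp _ (hnp j hj) hA'
      rw [Fintype.card_fin] at hk1
      have hd : r ∣ n := ⟨k, by rw [← hk1, mul_comm]⟩
      refine ⟨Sum.inr ⟨j, hj, hd⟩, Subtype.ext ?_⟩
      apply ConjClasses.mk_eq_mk_iff_isConj.2
      apply IsConj.symm
      apply S.isConj_mk p hrp l.ne_zero (ρ j).ne_zero hl (hgB ⟨j, hj, hd⟩) b⁻¹ (inv_mem hbU)
      obtain ⟨k', hk1', hk2'⟩ := charpoly_of_pow_eq_smul p hrp _ (hnp j hj) (hgB ⟨j, hj, hd⟩)
      rw [Fintype.card_fin] at hk1'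
      have hkk : k = k' := Nat.eq_of_mul_eq_mul_right hr.out.pos (hk1.trans hk1'.symm)
      rw [hk2, hk2', hkk]
  rw [← Nat.card_congr (Equiv.ofBijective Φ ⟨hinj, hsurj⟩), Nat.card_sum, card_J]
  apply arith_aux _ _ _ _ hr.out.two_le
  · split_ifs <;> simp
  · exact card_orbits n hn

end Cfsg.Agent.Lib.Helper38.Rot
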