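import Mathlib
import Cfsg.Agent.Lib.Helper38.ProjClasses3

set_option autoImplicit false

/-! The general linear group satisfies the hypotheses of the abstract count. -/

namespace Cfsg.Agent.Lib.Helper38.Rot

open Polynomial Matrix

variable {K : Type*} [Field K] [Fintype K] {n r : ℕ} [hr : Fact r.Prime]

omit [Fintype K] hr in
theorem isConj_GL_iff (g h : GL (Fin n) K) : IsConj g h ↔
    ∃ P : GL (Fin n) K, (P : Matrix (Fin n) (Fin n) K) * (g : Matrix (Fin n) (Fin n) K) =
      (h : Matrix (Fin n) (Fin n) K) * (P : Matrix (Fin n) (Fin n) K) := by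
  rw [isConj_iff]
  constructor
  · rintro ⟨c, hc⟩
    refine ⟨c, ?_⟩
    rw [← hc, ← Units.val_mul, ← Units.val_mul]
    congr 1
    group
  · rintro ⟨P, hP⟩
    refine ⟨P, ?_⟩
    rw [mul_inv_eq_iff_eq_mul]
    exact Units.ext hP

theorem isSetup_GL (hn : 1 ≤ n) (ζ : Kˣ) (hζ : IsPrimitiveRoot (ζ : K) r) :
    IsSetup r (Units.coeHom (Matrix (Fin n) (Fin n) K)) ⊤ ζ where
  hζU := Subgroup.mem_top _
  hζ := hζ
  hcenter := by
    intro h
    rw [Matrix.GeneralLinearGroup.mem_center_iff_val_mem_range_scalar]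
    constructor
    · rintro ⟨c, hc⟩
      have hc0 : c ≠ 0 := by
        rintro rfl
        rw [map_zero] at hc
        have h1 := h.mul_inv
        rw [← hc, Matrix.zero_mul] at h1
        have := congrFun (congrFun h1 ⟨0, hn⟩) ⟨0, hn⟩
        simp at this
      refine ⟨Units.mk0 c hc0, Subgroup.mem_top _, ?_⟩
      rw [Units.coeHom_apply, ← hc, Units.val_mk0, Matrix.scalar_apply, Matrix.smul_one_eq_diagonal]
    · rintro ⟨c, -, hc⟩
      refine ⟨(c : K), ?_⟩
      rw [Units.coeHom_apply] at hc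
      rw [hc, Matrix.scalar_apply, Matrix.smul_one_eq_diagonal]
  hscal := by
    intro c _
    refine ⟨⟨(c : K) • 1, ((c⁻¹ : Kˣ) : K) • 1, ?_, ?_⟩, rfl⟩
    · rw [Matrix.smul_mul, Matrix.one_mul, smul_smul, ← Units.val_mul, mul_inv_cancel,
        Units.val_one, one_smul]
    · rw [Matrix.smul_mul, Matrix.one_mul, smul_smul, ← Units.val_mul, inv_mul_cancel,
        Units.val_one, one_smul]
  hconj := isConj_GL_iff
  hexA := by
    intro d
    refine ⟨⟨Matrix.diagonal (fun i => (ζ : K) ^ (d i).val),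
      Matrix.diagonal (fun i => ((ζ⁻¹ : Kˣ) : K) ^ (d i).val), ?_, ?_⟩, rfl⟩
    · rw [Matrix.diagonal_mul_diagonal, ← Matrix.diagonal_one]
      congr 1
      ext i
      rw [← mul_pow, ← Units.val_mul, mul_inv_cancel, Units.val_one, one_pow]
    · rw [Matrix.diagonal_mul_diagonal, ← Matrix.diagonal_one]
      congr 1
      ext i
      rw [← mul_pow, ← Units.val_mul, inv_mul_cancel, Units.val_one, one_pow]
  hexB := by
    intro hd l _ hl
    obtain ⟨A, hA⟩ := exists_pow_eq_smul (ι := Fin n) hl (by rw [Fintype.card_fin]; exact hd)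
    have hr1 : r - 1 + 1 = r := Nat.sub_add_cancel hr.out.one_lt.le
    refine ⟨⟨A, ((l⁻¹ : Kˣ) : K) • A ^ (r - 1), ?_, ?_⟩, hA⟩
    · rw [Matrix.mul_smul, ← pow_succ', hr1, hA, smul_smul, ← Units.val_mul, inv_mul_cancel,
        Units.val_one, one_smul]
    · rw [Matrix.smul_mul, ← pow_succ, hr1, hA, smul_smul, ← Units.val_mul, inv_mul_cancel,
        Units.val_one, one_smul]
  hpow := by
    rintro l - ⟨b, hb⟩
    have hb0 : b ≠ 0 := by
      rintro rfl
      rw [zero_pow hr.out.ne_zero] at hb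
      exact l.ne_zero hb.symm
    exact ⟨Units.mk0 b hb0, Subgroup.mem_top _, Units.ext (by push_cast; exact hb)⟩

theorem card_classes_PGL (hn : 1 ≤ n) (hrq : r ∣ Fintype.card K - 1) :
    Nat.card {C : ConjClasses (GL (Fin n) K ⧸ Subgroup.center (GL (Fin n) K)) //
      ∃ g : GL (Fin n) K ⧸ Subgroup.center (GL (Fin n) K), ConjClasses.mk g = C ∧ orderOf g = r} =
      (Nat.choose (n + r - 1) (r - 1) - r - (if r ∣ n then 1 else 0)) / r +
        r * (if r ∣ n then 1 else 0) := by
  obtain ⟨p, hp⟩ := CharP.exists K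
  have hpp : p.Prime := CharP.char_is_prime K p
  have : Fact p.Prime := ⟨hpp⟩
  have hrp : r ≠ p := by
    rintro rfl
    have h1 : r ∣ Fintype.card K := by
      rw [← CharP.cast_eq_zero_iff K r]
      exact Nat.cast_card_eq_zero K
    have h2 : 0 < Fintype.card K := Fintype.card_pos
    have h3 : r ∣ Fintype.card K - (Fintype.card K - 1) := Nat.dvd_sub h1 hrq
    rw [show Fintype.card K - (Fintype.card K - 1) = 1 by omega] at h3
    exact hpp.one_lt.ne' (Nat.dvd_one.1 h3)
  classical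
  obtain ⟨ζ, hζ⟩ := exists_prime_orderOf_dvd_card (G := Kˣ) r (by
    rw [Fintype.card_units]; exact hrq)
  have hζ' : IsPrimitiveRoot (ζ : K) r := by
    rw [IsPrimitiveRoot.coe_units_iff, ← hζ]
    exact IsPrimitiveRoot.orderOf ζ
  exact (isSetup_GL hn ζ hζ').card_classes p hrp hn

end Cfsg.Agent.Lib.Helper38.Rot
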