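import Mathlib
import Cfsg.Agent.Lib.Helper38.PGLSetup
import Cfsg.Agent.Lib.Helper44.GUSim
import Cfsg.Agent.Lib.Helper5.GUCenter

set_option autoImplicit false

/-! The general unitary group satisfies the hypotheses of the abstract count. -/

namespace Cfsg.Agent.Lib.Helper38.Rot

open Polynomial Matrix Cfsg.Agent.Lib.Helper44 Cfsg.Agent.Lib.Helper5

variable {K : Type*} [Field K] [Fintype K] {n r q : ℕ} [hr : Fact r.Prime]

/-- the norm-one scalars. -/
def normOne (K : Type*) [Field K] (q : ℕ) : Subgroup Kˣ := (powMonoidHom (q + 1) : Kˣ →* Kˣ).ker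

omit [Fintype K] in
theorem mem_normOne {a : Kˣ} : a ∈ normOne K q ↔ a ^ (q + 1) = 1 := by
  rw [normOne, MonoidHom.mem_ker]
  rfl

/-- the matrix of an element of the unitary group. -/
def matGU (n : ℕ) (K : Type*) [Field K] (q : ℕ) : ↥(Cfsg.GU n K q) →* Matrix (Fin n) (Fin n) K :=
  (Units.coeHom (Matrix (Fin n) (Fin n) K)).comp (Cfsg.GU n K q).subtype

theorem isSetup_GU (p : ℕ) [hp : Fact p.Prime] [CharP K p] (hrp : r ≠ p)
    (hK : Fintype.card K = q ^ 2) (hn : 1 ≤ n) (hr2 : r ≠ 2) (hrq : r ∣ q + 1)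
    (ζ : Kˣ) (hζ : IsPrimitiveRoot (ζ : K) r) :
    IsSetup r (matGU n K q) (normOne K q) ζ := by
  obtain ⟨σ, hσ, hσσ, -⟩ := exists_frob_sq hK
  have hζU : ζ ∈ normOne K q := by
    rw [mem_normOne]
    obtain ⟨m, hm⟩ := hrq
    apply Units.ext
    push_cast
    rw [hm, pow_mul, hζ.pow_eq_one, one_pow]
  have hq1 : 1 ≤ q := by
    rcases Nat.eq_zero_or_pos q with h | h
    · rw [h] at hK
      have := Fintype.card_pos (α := K)
      simp at hK
    · exact h
  refine ⟨hζU, hζ, ?_, ?_, ?_, ?_, ?_, ?_⟩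
  · intro z
    constructor
    · intro hz
      obtain ⟨a, ha⟩ := GU_center_scalar hK z hz
      have hz1 := (mem_GU_iff σ hσ (z : GL (Fin n) K)).1 z.2
      have ha' : ((z : GL (Fin n) K) : Matrix (Fin n) (Fin n) K) = a • 1 := by
        rw [Matrix.smul_one_eq_diagonal, ← Matrix.scalar_apply]
        exact ha
      rw [ha'] at hz1
      have h0 : ((a • (1 : Matrix (Fin n) (Fin n) K)).map σ)ᵀ * (a • 1) = (σ a * a) • 1 := by
        have h6 : (a • (1 : Matrix (Fin n) (Fin n) K)).map σ = σ a • 1 := by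
          ext i j
          by_cases hij : i = j
          · subst hij; simp
          · simp [hij]
        rw [h6, Matrix.transpose_smul, Matrix.transpose_one, Matrix.smul_mul, Matrix.one_mul,
          smul_smul]
      have h1 : (σ a * a) • (1 : Matrix (Fin n) (Fin n) K) = (1 : K) • 1 := by
        rw [one_smul, ← h0, hz1]
      have h2 := smul_one_inj hn h1
      rw [hσ, ← pow_succ] at h2
      have ha0 : a ≠ 0 := by
        rintro rfl
        rw [zero_pow (by omega)] at h2
        exact zero_ne_one h2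
      exact ⟨Units.mk0 a ha0, mem_normOne.2 (Units.ext (by push_cast; exact h2)), ha'⟩
    · rintro ⟨c, hc, hcz⟩
      have h1 : z = scalarGU n c (mem_normOne.1 hc) := by
        apply Subtype.ext
        apply Units.ext
        rw [scalarGU_coe, Matrix.scalar_apply, ← Matrix.smul_one_eq_diagonal]
        exact hcz
      rw [h1]
      exact scalarGU_mem_center c _
  · intro c hc
    refine ⟨scalarGU n c (mem_normOne.1 hc), ?_⟩
    show (scalarGU n c (mem_normOne.1 hc)).1.1 = _
    rw [scalarGU_coe, Matrix.scalar_apply, ← Matrix.smul_one_eq_diagonal]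
  · intro g h
    rw [GU_isConj_iff hK, isConj_GL_iff]
    rfl
  · intro d
    have hv : ∀ i, σ ((ζ : K) ^ (d i).val) * (ζ : K) ^ (d i).val = 1 := by
      intro i
      rw [hσ, ← pow_succ, ← pow_mul, mul_comm, pow_mul]
      have := congrArg Units.val (mem_normOne.1 hζU)
      push_cast at this
      rw [this, one_pow]
    let D : GL (Fin n) K := ⟨Matrix.diagonal (fun i => (ζ : K) ^ (d i).val),
      Matrix.diagonal (fun i => ((ζ⁻¹ : Kˣ) : K) ^ (d i).val), by
        rw [Matrix.diagonal_mul_diagonal, ← Matrix.diagonal_one]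
        congr 1
        ext i
        rw [← mul_pow, ← Units.val_mul, mul_inv_cancel, Units.val_one, one_pow], by
        rw [Matrix.diagonal_mul_diagonal, ← Matrix.diagonal_one]
        congr 1
        ext i
        rw [← mul_pow, ← Units.val_mul, inv_mul_cancel, Units.val_one, one_pow]⟩
    refine ⟨⟨D, (mem_GU_iff σ hσ D).2 ?_⟩, rfl⟩
    show ((Matrix.diagonal (fun i => (ζ : K) ^ (d i).val)).map σ)ᵀ *
      Matrix.diagonal (fun i => (ζ : K) ^ (d i).val) = 1
    rw [Matrix.diagonal_map (map_zero σ), Matrix.diagonal_transpose, Matrix.diagonal_mul_diagonal,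
      ← Matrix.diagonal_one]
    congr 1
    ext i
    exact hv i
  · intro hd l hlU hl
    obtain ⟨A, hA⟩ := (isSetup_GL hn ζ hζ).hexB hd l (Subgroup.mem_top _) hl
    rw [Units.coeHom_apply] at hA
    have hl1 : σ (l : K) * (l : K) = 1 := by
      rw [hσ, ← pow_succ]
      have := congrArg Units.val (mem_normOne.1 hlU)
      push_cast at this
      exact this
    have hB : ((((A : Matrix (Fin n) (Fin n) K).map σ)ᵀ)⁻¹) ^ r = (l : K) • 1 := by
      have h5 : ((A : Matrix (Fin n) (Fin n) K).map σ) =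
        σ.mapMatrix (A : Matrix (Fin n) (Fin n) K) := rfl
      rw [Matrix.inv_pow', ← Matrix.transpose_pow, h5, ← map_pow, hA]
      apply Matrix.inv_eq_left_inv
      have h6 : σ.mapMatrix ((l : K) • (1 : Matrix (Fin n) (Fin n) K)) = σ (l : K) • 1 := by
        ext i j
        by_cases hij : i = j
        · subst hij; simp
        · simp [hij]
      rw [h6, Matrix.transpose_smul, Matrix.transpose_one, Matrix.smul_mul, Matrix.one_mul,
        smul_smul, mul_comm, hl1, one_smul]
    obtain ⟨k, hk1, hk2⟩ := charpoly_of_pow_eq_smul p hrp _ hl hA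
    obtain ⟨k', hk1', hk2'⟩ := charpoly_of_pow_eq_smul p hrp _ hl hB
    have hkk : k = k' := Nat.eq_of_mul_eq_mul_right hr.out.pos (hk1.trans hk1'.symm)
    obtain ⟨P, hP⟩ := exists_conj_of_charpoly_eq p (coprime_mul_card_sub_one p hrp)
      (coprime_mul_card_sub_one p hrp) (pow_eq_one_of_pow_eq_smul _ l.ne_zero hA)
      (pow_eq_one_of_pow_eq_smul _ l.ne_zero hB) (by rw [hk2, hk2', hkk])
    have hσf : (fun x : K => x ^ q) = ⇑σ := funext (fun x => (hσ x).symm)
    obtain ⟨B, hBc⟩ := (GU_similar_iff hK A).2 (by rw [hσf]; exact ⟨P, hP⟩)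
    obtain ⟨Q, hQ⟩ := (isConj_GL_iff _ _).1 hBc
    exact ⟨B, pow_eq_smul_of_semiconj Q hQ r _ hA⟩
  · rintro l hlU ⟨b, hb⟩
    have hb0 : b ≠ 0 := by
      rintro rfl
      rw [zero_pow hr.out.ne_zero] at hb
      exact l.ne_zero hb.symm
    have h1 : (b ^ (q + 1)) ^ r = 1 := by
      rw [← pow_mul, mul_comm, pow_mul, hb]
      have := congrArg Units.val (mem_normOne.1 hlU)
      push_cast at this
      exact this
    have h2 : (b ^ (q + 1)) ^ (q - 1) = 1 := by
      rw [← pow_mul]
      have h3 : (q + 1) * (q - 1) = Fintype.card K - 1 := by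
        rw [hK]
        obtain ⟨m, rfl⟩ : ∃ m, q = m + 1 := ⟨q - 1, by omega⟩
        simp only [Nat.add_sub_cancel]
        have : (m + 1) ^ 2 = (m + 1 + 1) * m + 1 := by ring
        omega
      rw [h3, FiniteField.pow_card_sub_one_eq_one b hb0]
    have hcop : Nat.gcd r (q - 1) = 1 := by
      apply (Nat.Prime.coprime_iff_not_dvd hr.out).2
      intro h
      have h3 : r ∣ (q + 1) - (q - 1) := Nat.dvd_sub hrq h
      rw [show (q + 1) - (q - 1) = 2 by omega] at h3
      exact hr2 ((Nat.prime_dvd_prime_iff_eq hr.out Nat.prime_two).1 h3)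
    have h4 := pow_gcd_eq_one.2 ⟨h1, h2⟩
    rw [hcop, pow_one] at h4
    exact ⟨Units.mk0 b hb0, mem_normOne.2 (Units.ext (by push_cast; exact h4)),
      Units.ext (by push_cast; exact hb)⟩

end Cfsg.Agent.Lib.Helper38.Rot
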