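import Cfsg.Agent.Lib.Helper38.QSignB

set_option autoImplicit false

/-! Existence of elements of odd prime order with prescribed type in even-dimensional orthogonal
groups. -/

namespace Cfsg.Agent.Lib.Helper38.QCnt

open Polynomial Matrix QuadraticMap Cfsg.Agent.Lib.Helper44 Cfsg.Agent.Lib.Helper43.PO
  Cfsg.Agent.Lib.Helper38.CycF Cfsg.Agent.Lib.Helper45

variable {F : Type*} [Field F] [Fintype F]

theorem exists_core (p : ℕ) [hp : Fact p.Prime] [CharP F p] {r : ℕ} (hr : r.Prime)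
    (hr2 : r ≠ 2) (hrp : r ≠ p) (i : ℕ) (hi : i = orderOf ((Fintype.card F : ℕ) : ZMod r))
    (μ : Multiset ↥(facs F r)) (hμ0 : μ ≠ 0) (k : ℕ) (hk : i * Multiset.card μ = 2 * k)
    (hstar : μ.map (starI p hr hrp) = μ) :
    ∃ S G : Matrix ((Fin k ⊕ Fin k) ⊕ Fin 0) ((Fin k ⊕ Fin k) ⊕ Fin 0) F,
      Gᵀ * S * G = S ∧ (S + Sᵀ).det ≠ 0 ∧ G ^ r = 1 ∧ G.charpoly = f0 μ := by
  obtain ⟨S, M, e1, e2, e3, e4, -⟩ := exists_form_block p hr hr2 hrp i hi μ hμ0 k hk hstar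
    (0 : Matrix (Fin 0) (Fin 0) F) (by simp)
  exact ⟨S, M, e1, e2, e3, by simpa using e4⟩

theorem exists_of_sum {ι₀ κ ι : Type} [Fintype ι₀] [DecidableEq ι₀] [Fintype κ] [DecidableEq κ]
    [Fintype ι] [DecidableEq ι] (A : QuadraticForm F (ι₀ → F)) (B : QuadraticForm F (κ → F))
    (Q : QuadraticForm F (ι → F)) (h : IsoM (sumQF A B) Q) (G : Matrix ι₀ ι₀ F)
    (hG : ∀ v, A (G *ᵥ v) = A v) {r : ℕ} (hr : r ≠ 0) (hGr : G ^ r = 1) :
    ∃ g : ↥(Cfsg.isometryGroup F ⇑Q), g ^ r = 1 ∧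
      ((g : GL ι F) : Matrix ι ι F).charpoly = G.charpoly * (X - 1) ^ Fintype.card κ := by
  obtain ⟨g, h1, h2⟩ := exists_isometry_of_isoM (sumQF A B) Q h
    (fromBlocks G 0 0 (1 : Matrix κ κ F)) (by
      intro v
      rw [Matrix.fromBlocks_mulVec, sumQF_apply, sumQF_apply, Sum.elim_comp_inl, Sum.elim_comp_inr]
      simp only [Matrix.zero_mulVec, add_zero, zero_add, Matrix.one_mulVec]
      rw [hG]) hr (by
      have : ∀ j : ℕ, (fromBlocks G 0 0 (1 : Matrix κ κ F)) ^ j = fromBlocks (G ^ j) 0 0 1 := by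
        intro j
        induction j with
        | zero => simp
        | succ j ih =>
          rw [pow_succ, ih, fromBlocks_multiply]
          simp [pow_succ]
      rw [this, hGr, fromBlocks_one])
  refine ⟨g, h1, ?_⟩
  rw [h2, Matrix.charpoly_fromBlocks_zero₁₂, Matrix.charpoly_one]

theorem exists_of_tau_sign (p : ℕ) [hp : Fact p.Prime] [CharP F p] {r : ℕ} (hr : r.Prime)
    (hr2 : r ≠ 2) (hrp : r ≠ p) {ι : Type} [Fintype ι] [DecidableEq ι] {n : ℕ}
    (hι : Fintype.card ι = 2 * (n + 1)) (Q : QuadraticForm F (ι → F))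
    (hQ : (polarBilin Q).Nondegenerate) (hrq : ¬ r ∣ Fintype.card F) (i : ℕ) (hi0 : 0 < i)
    (hi : i = orderOf ((Fintype.card F : ℕ) : ZMod r))
    (μ : Multiset ↥(facs F r)) (hμ0 : μ ≠ 0) (hμ : i * Multiset.card μ ≤ 2 * (n + 1))
    (heven : Even (i * Multiset.card μ)) (hstar : μ.map (starI p hr hrp) = μ)
    (hfull : i * Multiset.card μ = 2 * (n + 1) →
      (0 < exc ⇑Q → ((Fintype.card F : ℕ) : ZMod r) ^ (n + 1) = 1) ∧
      (exc ⇑Q < 0 → ((Fintype.card F : ℕ) : ZMod r) ^ (n + 1) = -1)) :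
    ∃ g : ↥(Cfsg.isometryGroup F ⇑Q), orderOf g = r ∧
      typ ((g : GL ι F) : Matrix ι ι F) = tau (2 * (n + 1)) i r μ := by
  have : Fact r.Prime := ⟨hr⟩
  obtain ⟨k, hk⟩ := heven
  rw [← two_mul] at hk
  obtain ⟨S, G, e1, e2, e3, e4⟩ := exists_core p hr hr2 hrp i hi μ hμ0 k hk hstar
  have hk0 : 0 < k := by
    have h1 : 0 < Multiset.card μ := Multiset.card_pos.2 hμ0
    have h2 : 0 < i * Multiset.card μ := Nat.mul_pos hi0 h1
    omega
  obtain ⟨k', rfl⟩ : ∃ k', k = k' + 1 := ⟨k - 1, by omega⟩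
  have hA := qfOf_nondeg S e2
  have hιA : Fintype.card ((Fin (k' + 1) ⊕ Fin (k' + 1)) ⊕ Fin 0) = 2 * (k' + 1) := by
    simp only [Fintype.card_sum, Fintype.card_fin]; omega
  have hne : (1 : ZMod r) ≠ -1 := by
    intro h
    have h2 : ((2 : ℕ) : ZMod r) = 0 := by
      push_cast
      linear_combination h
    rw [ZMod.natCast_eq_zero_iff] at h2
    exact hr2 ((Nat.prime_dvd_prime_iff_eq hr Nat.prime_two).1 h2)
  by_cases hkn : k' = n
  · subst hkn
    have hf := hfull hk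
    have hR := pow_eq_of_fpf hιA (qfOf S) hA G hrq (qfOf_mulVec S G e1) e3
      (fix_of_charpoly p hr hrp μ G e4)
    have hiso : IsoM (qfOf S) Q := by
      apply isoM_of_same_sign hιA hι _ hA Q hQ
      rcases exc_ne_zero hιA (qfOf S) hA with h1 | h1 <;> rcases exc_ne_zero hι Q hQ with h2 | h2
      · exact Or.inl ⟨h1, h2⟩
      · exact absurd ((hR.1 h1).symm.trans (hf.2 h2)) hne
      · exact absurd ((hf.1 h2).symm.trans (hR.2 h1)) hne
      · exact Or.inr ⟨h1, h2⟩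
    obtain ⟨g, hg1, hg2⟩ := exists_isometry_of_isoM (qfOf S) Q hiso G (qfOf_mulVec S G e1)
      hr.ne_zero e3
    exact ⟨g, order_typ_of_charpoly p hr hrp _ _ i hι hi μ hμ0 hμ g hg1
      (by rw [hg2, e4, hk, Nat.sub_self, pow_zero, mul_one])⟩
  · obtain ⟨j, hj⟩ : ∃ j, n + 1 = (k' + 1) + (j + 1) := ⟨n - k' - 1, by omega⟩
    have hq1 : (0 : ℤ) < (Fintype.card F : ℤ) - 1 := by
      have h1 : 1 < Fintype.card F := Fintype.one_lt_card
      have h2 : (1 : ℤ) < (Fintype.card F : ℤ) := by exact_mod_cast h1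
      omega
    have key : ∀ {κ : Type} [Fintype κ] [DecidableEq κ] (B : QuadraticForm F (κ → F)),
        (polarBilin B).Nondegenerate → Fintype.card κ = 2 * (j + 1) →
        0 < exc ⇑(qfOf S) * exc ⇑Q * exc ⇑B →
        ∃ g : ↥(Cfsg.isometryGroup F ⇑Q), orderOf g = r ∧
          typ ((g : GL ι F) : Matrix ι ι F) = tau (2 * (n + 1)) i r μ := by
      intro κ _ _ B hB hκ hpos
      have hs := exc_sum ⇑(qfOf S) ⇑B ⇑(sumQF (qfOf S) B) (sumQF_apply _ _) (unif_of_nondeg hκ B hB)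
      have hcard : Fintype.card (((Fin (k' + 1) ⊕ Fin (k' + 1)) ⊕ Fin 0) ⊕ κ) = 2 * (n + 1) := by
        rw [Fintype.card_sum, hιA, hκ]; omega
      have hpos2 : 0 < exc ⇑(sumQF (qfOf S) B) * exc ⇑Q := by
        have h5 : 0 < ((Fintype.card F : ℤ) - 1) * (exc ⇑(sumQF (qfOf S) B) * exc ⇑Q) := by
          rw [← mul_assoc, hs]
          calc 0 < exc ⇑(qfOf S) * exc ⇑Q * exc ⇑B := hpos
            _ = exc ⇑(qfOf S) * exc ⇑B * exc ⇑Q := by ring
        exact (mul_pos_iff_of_pos_left hq1).1 h5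
      have hiso : IsoM (sumQF (qfOf S) B) Q :=
        isoM_of_same_sign hcard hι _ (sumQF_nondeg hA hB) Q hQ (mul_pos_iff.1 hpos2)
      obtain ⟨g, hg1, hg2⟩ := exists_of_sum (qfOf S) B Q hiso G (qfOf_mulVec S G e1) hr.ne_zero e3
      refine ⟨g, order_typ_of_charpoly p hr hrp _ _ i hι hi μ hμ0 hμ g hg1 ?_⟩
      rw [hg2, e4, hκ, hk]
      congr 2
      omega
    obtain ⟨ζ, hζ⟩ := exists_aniso F
    have hpj := card_pow_mul_pos (F := F) j
    have hAQ : 0 < exc ⇑(qfOf S) * exc ⇑Q ∨ exc ⇑(qfOf S) * exc ⇑Q < 0 := by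
      rcases exc_ne_zero hιA (qfOf S) hA with h1 | h1 <;> rcases exc_ne_zero hι Q hQ with h2 | h2
      · exact Or.inl (mul_pos h1 h2)
      · exact Or.inr (mul_neg_of_pos_of_neg h1 h2)
      · exact Or.inr (mul_neg_of_neg_of_pos h1 h2)
      · exact Or.inl (mul_pos_of_neg_of_neg h1 h2)
    rcases hAQ with h | h
    · apply key (plusQF (j + 1) F) (plusQF_nondeg (j + 1) F)
        (by simp only [Fintype.card_sum, Fintype.card_fin]; omega)
      rw [exc_plus]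
      exact mul_pos h hpj
    · apply key (minusQF j F 1 ζ) (minusQF_nondeg j F (aniso_of_irr hζ)) (minus_card' j)
      rw [exc_minus j (aniso_of_irr hζ)]
      exact mul_pos_of_neg_of_neg h (by omega)

end Cfsg.Agent.Lib.Helper38.QCnt
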