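import Cfsg.Agent.Lib.Helper38.QSignC

set_option autoImplicit false

/-! Counting the classes of elements of odd prime order in even-dimensional orthogonal groups. -/

namespace Cfsg.Agent.Lib.Helper38.QCnt

open Polynomial Matrix QuadraticMap Cfsg.Agent.Lib.Helper44 Cfsg.Agent.Lib.Helper43.PO
  Cfsg.Agent.Lib.Helper38.CycF Cfsg.Agent.Lib.Helper45

variable {F : Type*} [Field F] [Fintype F]

/-- elements without fixed vectors are allowed -/
def FullOK {ι : Type} [Fintype ι] (Q : (ι → F) → F) (r n : ℕ) : Prop :=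
  (0 < exc Q → ((Fintype.card F : ℕ) : ZMod r) ^ (n + 1) = 1) ∧
    (exc Q < 0 → ((Fintype.card F : ℕ) : ZMod r) ^ (n + 1) = -1)

theorem card_classes_odd (p : ℕ) [hp : Fact p.Prime] [CharP F p] {r : ℕ} (hr : r.Prime)
    (hr2 : r ≠ 2) (hrp : r ≠ p) {ι : Type} [Fintype ι] [DecidableEq ι] {n : ℕ}
    (hι : Fintype.card ι = 2 * (n + 1)) (Q : QuadraticForm F (ι → F))
    (hQ : (polarBilin Q).Nondegenerate) (i t : ℕ)
    (hi : i = orderOf ((Fintype.card F : ℕ) : ZMod r)) (ht : t * i = r - 1) (hodd : Odd i) (L : ℕ)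
    (hL : ∀ a : ℕ, 0 < a → (a ≤ L ↔ (i * (2 * a) ≤ 2 * (n + 1) ∧
      (i * (2 * a) = 2 * (n + 1) → FullOK ⇑Q r n)))) :
    Nat.card {C : ConjClasses ↥(Cfsg.isometryGroup F ⇑Q) //
      ∃ g : ↥(Cfsg.isometryGroup F ⇑Q), ConjClasses.mk g = C ∧ orderOf g = r}
      = Nat.choose (L + t / 2) (t / 2) - 1 := by
  classical
  have : Fact r.Prime := ⟨hr⟩
  have hpp : p.Prime := Fact.out
  have hrq : ¬ r ∣ Fintype.card F := by
    intro h
    obtain ⟨⟨f, hf0⟩, -, hf⟩ := FiniteField.card F p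
    rw [hf] at h
    exact hrp ((Nat.prime_dvd_prime_iff_eq hr hpp).1 (hr.dvd_of_dvd_pow h))
  have hi0 : 0 < i := by
    rw [hi, orderOf_pos_iff, isOfFinOrder_iff_pow_eq_one]
    refine ⟨r - 1, Nat.sub_pos_of_lt hr.one_lt, ?_⟩
    apply ZMod.pow_card_sub_one_eq_one
    rwa [Ne, ZMod.natCast_eq_zero_iff]
  have hcardI : Fintype.card ↥(facs F r) = t := by
    rw [Fintype.card_coe, card_facs p hr hrp, ← hi, ← ht, Nat.mul_div_cancel _ hi0]
  have hfix : ∀ P : ↥(facs F r), starI p hr hrp P ≠ P := by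
    intro P h
    apply starP_ne_of_odd p hr hr2 hrp P.2
      (by rw [natDegree_of_mem p hr hrp P.2, ← hi]; exact hodd)
    exact congrArg Subtype.val h
  have hinv : Function.Involutive (starI (F := F) p hr hrp) := starI_starI p hr hrp
  obtain ⟨J, hJ, hJcard⟩ := MCount.exists_transversal _ hinv hfix
  rw [hcardI] at hJcard
  have hJc : Fintype.card ↥J = t / 2 := by
    rw [Fintype.card_coe]
    omega
  let τ : {ν : Multiset ↥J // ν ≠ 0 ∧ Multiset.card ν ≤ L} →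
      Multiset (Polynomial F × ℕ) := fun ν => tau (2 * (n + 1)) i r
        (MCount.dbl (starI p hr hrp) J ν.1)
  have hτ : Function.Injective τ := by
    intro ν ν' h
    exact Subtype.ext (MCount.dbl_injective _ J hJ (tau_injective p hr hrp (2 * (n + 1)) i h))
  rw [orth_card_classes p hr hr2 hrp hQ τ hτ, MCount.card_nonzero_le, hJc]
  · intro g hg
    obtain ⟨μ, hμ0, hμ, hT, hstar⟩ := orth_typ_eq_tau p hr hrp hQ (2 * (n + 1)) i hι hi g hg
    obtain ⟨ν, rfl⟩ := MCount.exists_dbl_eq _ J hJ μ hstar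
    have hν0 : ν ≠ 0 := by
      rintro rfl
      exact hμ0 rfl
    refine ⟨⟨ν, hν0, ?_⟩, hT⟩
    rw [hL _ (Multiset.card_pos.2 hν0)]
    rw [MCount.card_dbl] at hμ
    refine ⟨hμ, fun hfull => ?_⟩
    exact full_sign p hr hrp hι Q hQ hrq i hi g hg _ hT (by rw [MCount.card_dbl]; exact hfull)
  · rintro ⟨ν, hν0, hν⟩
    rw [hL _ (Multiset.card_pos.2 hν0)] at hν
    apply exists_of_tau_sign p hr hr2 hrp hι Q hQ hrq i hi0 hi _ (MCount.dbl_ne_zero _ J hν0)
    · rw [MCount.card_dbl]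
      exact hν.1
    · rw [MCount.card_dbl]
      exact ⟨i * Multiset.card ν, by ring⟩
    · exact MCount.map_dbl _ hinv J ν
    · rw [MCount.card_dbl]
      exact hν.2

theorem card_classes_even (p : ℕ) [hp : Fact p.Prime] [CharP F p] {r : ℕ} (hr : r.Prime)
    (hr2 : r ≠ 2) (hrp : r ≠ p) {ι : Type} [Fintype ι] [DecidableEq ι] {n : ℕ}
    (hι : Fintype.card ι = 2 * (n + 1)) (Q : QuadraticForm F (ι → F))
    (hQ : (polarBilin Q).Nondegenerate) (i t : ℕ)
    (hi : i = orderOf ((Fintype.card F : ℕ) : ZMod r)) (ht : t * i = r - 1) (heven : Even i) (L : ℕ)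
    (hL : ∀ a : ℕ, 0 < a → (a ≤ L ↔ (i * a ≤ 2 * (n + 1) ∧
      (i * a = 2 * (n + 1) → FullOK ⇑Q r n)))) :
    Nat.card {C : ConjClasses ↥(Cfsg.isometryGroup F ⇑Q) //
      ∃ g : ↥(Cfsg.isometryGroup F ⇑Q), ConjClasses.mk g = C ∧ orderOf g = r}
      = Nat.choose (L + t) t - 1 := by
  classical
  have : Fact r.Prime := ⟨hr⟩
  have hpp : p.Prime := Fact.out
  have hrq : ¬ r ∣ Fintype.card F := by
    intro h
    obtain ⟨⟨f, hf0⟩, -, hf⟩ := FiniteField.card F p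
    rw [hf] at h
    exact hrp ((Nat.prime_dvd_prime_iff_eq hr hpp).1 (hr.dvd_of_dvd_pow h))
  have hi0 : 0 < i := by
    rw [hi, orderOf_pos_iff, isOfFinOrder_iff_pow_eq_one]
    refine ⟨r - 1, Nat.sub_pos_of_lt hr.one_lt, ?_⟩
    apply ZMod.pow_card_sub_one_eq_one
    rwa [Ne, ZMod.natCast_eq_zero_iff]
  have hcardI : Fintype.card ↥(facs F r) = t := by
    rw [Fintype.card_coe, card_facs p hr hrp, ← hi, ← ht, Nat.mul_div_cancel _ hi0]
  have hid : ∀ μ : Multiset ↥(facs F r), μ.map (starI p hr hrp) = μ := by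
    intro μ
    conv_rhs => rw [← Multiset.map_id μ]
    apply Multiset.map_congr rfl
    intro P _
    exact Subtype.ext (starP_eq_of_even p hr hrp P.2 (by rw [← hi]; exact heven))
  let τ : {μ : Multiset ↥(facs F r) // μ ≠ 0 ∧ Multiset.card μ ≤ L} →
      Multiset (Polynomial F × ℕ) := fun μ => tau (2 * (n + 1)) i r μ.1
  have hτ : Function.Injective τ := by
    intro μ μ' h
    exact Subtype.ext (tau_injective p hr hrp (2 * (n + 1)) i h)
  rw [orth_card_classes p hr hr2 hrp hQ τ hτ, MCount.card_nonzero_le, hcardI]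
  · intro g hg
    obtain ⟨μ, hμ0, hμ, hT, -⟩ := orth_typ_eq_tau p hr hrp hQ (2 * (n + 1)) i hι hi g hg
    refine ⟨⟨μ, hμ0, ?_⟩, hT⟩
    rw [hL _ (Multiset.card_pos.2 hμ0)]
    exact ⟨hμ, fun hfull => full_sign p hr hrp hι Q hQ hrq i hi g hg _ hT hfull⟩
  · rintro ⟨μ, hμ0, hμ⟩
    rw [hL _ (Multiset.card_pos.2 hμ0)] at hμ
    exact exists_of_tau_sign p hr hr2 hrp hι Q hQ hrq i hi0 hi μ hμ0 hμ.1 (heven.mul_right _)
      (hid μ) hμ.2

theorem pascal_sub (N s : ℕ) (hN : 1 ≤ N) (hs : 1 ≤ s) :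
    Nat.choose (N - 1 + s) s - 1 = Nat.choose (N + s) s - 1 - Nat.choose (N + s - 1) (s - 1) := by
  obtain ⟨N', rfl⟩ : ∃ N', N = N' + 1 := ⟨N - 1, by omega⟩
  obtain ⟨s', rfl⟩ : ∃ s', s = s' + 1 := ⟨s - 1, by omega⟩
  have h1 : N' + 1 + (s' + 1) = (N' + s' + 1) + 1 := by ring
  have h2 : N' + 1 - 1 + (s' + 1) = N' + s' + 1 := by omega
  have h3 : N' + s' + 1 + 1 - 1 = N' + s' + 1 := by omega
  rw [h1, h2, h3, Nat.add_sub_cancel, Nat.choose_succ_succ (N' + s' + 1) s', Nat.succ_eq_add_one]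
  omega

theorem dvd_iff_even {i a M : ℕ} (hi0 : 0 < i) (h : i * a = 2 * M) : i ∣ M ↔ Even a := by
  constructor
  · rintro ⟨b, rfl⟩
    refine ⟨b, ?_⟩
    apply Nat.eq_of_mul_eq_mul_left hi0
    rw [h]; ring
  · rintro ⟨b, rfl⟩
    refine ⟨b, ?_⟩
    have : 2 * (i * b) = 2 * M := by rw [← h]; ring
    omega

theorem le_pred_iff {i a N K : ℕ} (hi0 : 0 < i) (ha : 0 < a) (hN : K = i * N) (P : Prop)
    (hP : ¬ P) : a ≤ N - 1 ↔ (i * a ≤ K ∧ (i * a = K → P)) := by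
  subst hN
  rw [Nat.mul_le_mul_left_iff hi0]
  constructor
  · intro h
    refine ⟨by omega, fun h2 => ?_⟩
    have := Nat.eq_of_mul_eq_mul_left hi0 h2
    omega
  · rintro ⟨h1, h2⟩
    by_contra hcon
    have h3 : a = N := by omega
    exact hP (h2 (by rw [h3]))

theorem le_div_iff_and {i a K : ℕ} (hi0 : 0 < i) (P : Prop) (hP : i * a = K → P) :
    a ≤ K / i ↔ (i * a ≤ K ∧ (i * a = K → P)) := by
  rw [Nat.le_div_iff_mul_le hi0, mul_comm]
  exact ⟨fun h => ⟨h, hP⟩, fun h => h.1⟩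

theorem two_mul_cond {i a M : ℕ} (P : Prop) :
    (i * (2 * a) ≤ 2 * M ∧ (i * (2 * a) = 2 * M → P)) ↔ (i * a ≤ M ∧ (i * a = M → P)) := by
  have e : i * (2 * a) = 2 * (i * a) := by ring
  rw [e]
  constructor <;> rintro ⟨h1, h2⟩ <;> exact ⟨by omega, fun h => h2 (by omega)⟩

theorem pow_eq_neg_one_iff {r : ℕ} [Fact r.Prime] (hr2 : r ≠ 2) (x : ZMod r) {M : ℕ}
    (h : x ^ (2 * M) = 1) : x ^ M = -1 ↔ ¬ x ^ M = 1 := by
  have hne : (1 : ZMod r) ≠ -1 := by
    intro h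
    have h2 : ((2 : ℕ) : ZMod r) = 0 := by
      push_cast
      linear_combination h
    rw [ZMod.natCast_eq_zero_iff] at h2
    exact hr2 ((Nat.prime_dvd_prime_iff_eq Fact.out Nat.prime_two).1 h2)
  constructor
  · intro h1 h2
    exact hne (h2.symm.trans h1)
  · intro h1
    have h3 : (x ^ M - 1) * (x ^ M + 1) = 0 := by
      have : x ^ (2 * M) = x ^ M * x ^ M := by rw [two_mul, pow_add]
      linear_combination h - this
    rcases mul_eq_zero.1 h3 with h4 | h4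
    · exact absurd (sub_eq_zero.1 h4) h1
    · linear_combination h4

end Cfsg.Agent.Lib.Helper38.QCnt
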