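import Cfsg.Agent.Lib.Helper38.UnitaryIdemC
import Cfsg.Agent.Lib.Helper44.SSConj
import Cfsg.Agent.Lib.Helper5.SUOrder

set_option autoImplicit false

/-!
# Semisimple elements of `SU_n(q)` with the same characteristic polynomial are conjugate
-/

namespace Cfsg.Agent.Lib.Helper38.UIdem

open Module Polynomial Matrix Cfsg.Agent.Lib.Helper44 Cfsg.Agent.Lib.Helper5
open Cfsg.Agent.Lib.Helper13 (frobQ frobQ_apply pow_q_pow_q)

variable {F : Type*} [Field F] [Fintype F] {q : ℕ}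

theorem exists_centralizer_det (hF : Fintype.card F = q ^ 2) (p : ℕ) [Fact p.Prime] [CharP F p]
    {n : ℕ} (hn : 1 ≤ n) (g : ↥(Cfsg.GU n F q)) (hg : (orderOf g).Coprime p) (l : Fˣ)
    (hl : l ^ (q + 1) = 1) : ∃ c : ↥(Cfsg.GU n F q), Commute c g ∧ detGU n F q c = l := by
  have hpos : 0 < orderOf g := orderOf_pos g
  have hA : ((g : GL (Fin n) F) : Matrix (Fin n) (Fin n) F) ^ (orderOf g - 1 + 1) = 1 := by
    rw [Nat.sub_add_cancel hpos]
    have h1 := pow_orderOf_eq_one g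
    have h2 := congrArg (fun x : ↥(Cfsg.GU n F q) => ((x : GL (Fin n) F) : Matrix (Fin n) (Fin n) F)) h1
    simp only [SubmonoidClass.coe_pow, Units.val_pow_eq_pow_val, OneMemClass.coe_one, Units.val_one] at h2
    exact h2
  have hk0 : ((orderOf g - 1 + 1 : ℕ) : F) ≠ 0 := by
    rw [Nat.sub_add_cancel hpos]
    intro h0
    have h1 := (CharP.cast_eq_zero_iff F p _).1 h0
    have h2 : p ∣ 1 := by
      have := Nat.dvd_gcd h1 (dvd_refl p)
      rwa [hg] at this
    exact (Fact.out : p.Prime).one_lt.ne' (Nat.dvd_one.1 h2)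
  have hU := (mem_GU_iff (frobQ hF) (fun x => rfl) (g : GL (Fin n) F)).1 g.2
  have hl' : (l : F) ^ (q + 1) = 1 := by
    have := congrArg Units.val hl
    simpa using this
  obtain ⟨c, hc1, hc2, hc3⟩ := exists_commuting_unitary hF hn _ hU hA hk0 (l : F) hl'
  let cu : GL (Fin n) F := ⟨c, (c.map (frobQ hF))ᵀ, mul_eq_one_comm.1 hc1, hc1⟩
  have hcu : cu ∈ Cfsg.GU n F q := (mem_GU_iff (frobQ hF) (fun x => rfl) cu).2 hc1
  refine ⟨⟨cu, hcu⟩, ?_, ?_⟩
  · apply Subtype.ext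
    apply Units.ext
    exact hc2.eq
  · apply Units.ext
    exact hc3

theorem su_conj (hF : Fintype.card F = q ^ 2) (p : ℕ) [Fact p.Prime] [CharP F p] (n : ℕ)
    (g h : ↥(Cfsg.SU n F q)) (hg : (orderOf g).Coprime p) (hh : (orderOf h).Coprime p)
    (hc : ((g : Matrix.SpecialLinearGroup (Fin n) F) : Matrix (Fin n) (Fin n) F).charpoly =
      ((h : Matrix.SpecialLinearGroup (Fin n) F) : Matrix (Fin n) (Fin n) F).charpoly) :
    IsConj g h := by
  rcases Nat.eq_zero_or_pos n with rfl | hn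
  · have : g = h := Subtype.ext (Subtype.ext (Subsingleton.elim _ _))
    rw [this]
  have hA : ((g : Matrix.SpecialLinearGroup (Fin n) F) : Matrix (Fin n) (Fin n) F) ^ orderOf g = 1 := by
    have h1 := pow_orderOf_eq_one g
    have h2 := congrArg (fun x : ↥(Cfsg.SU n F q) =>
      ((x : Matrix.SpecialLinearGroup (Fin n) F) : Matrix (Fin n) (Fin n) F)) h1
    simp only [SubmonoidClass.coe_pow, Matrix.SpecialLinearGroup.coe_pow, OneMemClass.coe_one,
      Matrix.SpecialLinearGroup.coe_one] at h2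
    exact h2
  have hB : ((h : Matrix.SpecialLinearGroup (Fin n) F) : Matrix (Fin n) (Fin n) F) ^ orderOf h = 1 := by
    have h1 := pow_orderOf_eq_one h
    have h2 := congrArg (fun x : ↥(Cfsg.SU n F q) =>
      ((x : Matrix.SpecialLinearGroup (Fin n) F) : Matrix (Fin n) (Fin n) F)) h1
    simp only [SubmonoidClass.coe_pow, Matrix.SpecialLinearGroup.coe_pow, OneMemClass.coe_one,
      Matrix.SpecialLinearGroup.coe_one] at h2
    exact h2
  obtain ⟨P, hP⟩ := exists_conj_of_charpoly_eq p hg hh hA hB hc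
  have h1 : IsConj ((suToGU n F q g : ↥(Cfsg.GU n F q)) : GL (Fin n) F)
      ((suToGU n F q h : ↥(Cfsg.GU n F q)) : GL (Fin n) F) := by
    refine isConj_iff.2 ⟨P, ?_⟩
    rw [mul_inv_eq_iff_eq_mul]
    apply Units.ext
    exact hP
  obtain ⟨c₀, hc₀⟩ := isConj_iff.1 ((GU_isConj_iff hF _ _).2 h1)
  have hl : ((detGU n F q c₀)⁻¹) ^ (q + 1) = 1 := by
    have h2 : detGU n F q c₀ ∈ ((detGU n F q).range : Set Fˣ) := ⟨c₀, rfl⟩
    rw [range_detGU hF hn] at h2
    rw [inv_pow, h2, inv_one]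
  have hg' : (orderOf (suToGU n F q g)).Coprime p := by
    rw [orderOf_injective _ suToGU_injective]
    exact hg
  obtain ⟨c₁, hc₁, hdet⟩ := exists_centralizer_det hF p hn (suToGU n F q g) hg' _ hl
  have h3 : c₀ * c₁ ∈ (detGU n F q).ker := by
    rw [MonoidHom.mem_ker, map_mul, hdet, mul_inv_cancel]
  rw [← range_suToGU] at h3
  obtain ⟨s, hs⟩ := h3
  refine isConj_iff.2 ⟨s, ?_⟩
  apply suToGU_injective
  rw [map_mul, map_mul, map_inv, hs, ← hc₀, _root_.mul_inv_rev]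
  have h4 : c₁ * suToGU n F q g * c₁⁻¹ = suToGU n F q g := by
    rw [hc₁.eq, mul_inv_cancel_right]
  calc c₀ * c₁ * suToGU n F q g * (c₁⁻¹ * c₀⁻¹)
      = c₀ * (c₁ * suToGU n F q g * c₁⁻¹) * c₀⁻¹ := by group
    _ = _ := by rw [h4]

end Cfsg.Agent.Lib.Helper38.UIdem
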