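import Cfsg.Agent.Lib.Helper38.SUConj
import Cfsg.Agent.Lib.Helper38.DescentCount
import Cfsg.Agent.Lib.Helper38.SpSSC
import Cfsg.Agent.Lib.Helper38.GUOrderR
import Cfsg.Agent.Lib.Helper45.MonicCount

set_option autoImplicit false

/-!
# The number of semisimple classes of `SU_n(q)`
-/

namespace Cfsg.Agent.Lib.Helper38.UIdem

open Module Polynomial Matrix Cfsg.Agent.Lib.Helper44 Cfsg.Agent.Lib.Helper5 Cfsg.Agent.Lib.Helper45
open Cfsg.Agent.Lib.Helper13 (frobQ frobQ_apply pow_q_pow_q)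
open Cfsg.Agent.Lib.Helper38.Descent

theorem charpoly_dagger_inv' {K : Type*} [Field K] (σ : K →+* K) {ι : Type*} [Fintype ι]
    [DecidableEq ι] (M : Matrix ι ι K) (hM : IsUnit M) :
    (((M.map σ)ᵀ)⁻¹).charpoly =
      C ((-1) ^ Fintype.card ι * (σ M.det)⁻¹) * (M.charpoly.map σ).reverse := by
  have hu := CycF.isUnit_dagger σ M hM
  have h2 : (M.map σ).charpoly = M.charpoly.map σ := charpoly_map M σ
  have h3 : ((M.map σ)ᵀ).det = σ M.det := by
    rw [det_transpose]; exact (RingHom.map_det σ M).symm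
  rw [Matrix.charpoly_inv _ hu, ← Matrix.reverse_charpoly, Matrix.charpoly_transpose, h2, h3,
    Ring.inverse_eq_inv']
  simp only [C_mul, map_pow, map_neg, map_one]

/-- twisted self-reciprocal polynomials -/
def IsStar {K : Type*} [Field K] (σ : K →+* K) (n : ℕ) (f : K[X]) : Prop :=
  f = C ((-1) ^ n) * (f.map σ).reverse

theorem isStar_iff_coeff {K : Type*} [Field K] (σ : K →+* K) {n : ℕ} {f : K[X]}
    (hf : f.natDegree = n) :
    IsStar σ n f ↔ ∀ i, f.coeff i = (-1) ^ n * σ (f.coeff (revAt n i)) := by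
  unfold IsStar
  rw [Polynomial.ext_iff]
  refine forall_congr' fun i => ?_
  rw [coeff_C_mul, coeff_reverse, natDegree_map, hf, coeff_map]

variable {F : Type*} [Field F] [Fintype F] {q : ℕ}

theorem su_charpoly_star (hF : Fintype.card F = q ^ 2) {n : ℕ} (s : ↥(Cfsg.SU n F q)) :
    IsStar (frobQ hF) n
      ((s : Matrix.SpecialLinearGroup (Fin n) F) : Matrix (Fin n) (Fin n) F).charpoly := by
  have hU := (mem_GU_iff (frobQ hF) (fun x => rfl) (suToGU n F q s : GL (Fin n) F)).1 (suToGU n F q s).2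
  change ((((s : Matrix.SpecialLinearGroup (Fin n) F) : Matrix (Fin n) (Fin n) F).map (frobQ hF))ᵀ) *
    ((s : Matrix.SpecialLinearGroup (Fin n) F) : Matrix (Fin n) (Fin n) F) = 1 at hU
  have hdet : ((s : Matrix.SpecialLinearGroup (Fin n) F) : Matrix (Fin n) (Fin n) F).det = 1 := s.1.2
  have hunit : IsUnit ((s : Matrix.SpecialLinearGroup (Fin n) F) : Matrix (Fin n) (Fin n) F) := by
    rw [Matrix.isUnit_iff_isUnit_det, hdet]; exact isUnit_one
  have h1 := charpoly_dagger_inv' (frobQ hF) _ hunit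
  rw [Matrix.inv_eq_right_inv hU, hdet, map_one, inv_one, mul_one, Fintype.card_fin] at h1
  exact h1

theorem exists_su_of_star (hF : Fintype.card F = q ^ 2) (p : ℕ) [hp : Fact p.Prime] [CharP F p]
    {n : ℕ} (f : F[X]) (hm : f.Monic) (hn : f.natDegree = n) (hs : IsStar (frobQ hF) n f) :
    ∃ s : ↥(Cfsg.SU n F q), (orderOf s).Coprime p ∧
      ((s : Matrix.SpecialLinearGroup (Fin n) F) : Matrix (Fin n) (Fin n) F).charpoly = f := by
  subst hn
  set σ := frobQ hF with hσdef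
  obtain ⟨N, -, -, -, -, hch⟩ := SpSS.exists_NS f hm
  have hεε : ((-1 : F) ^ f.natDegree) * (-1) ^ f.natDegree = 1 := by rw [← mul_pow]; simp
  have hc0 : f.coeff 0 = (-1) ^ f.natDegree := by
    have h1 := (isStar_iff_coeff σ rfl).1 hs 0
    rw [revAt_le (Nat.zero_le _), Nat.sub_zero, hm.coeff_natDegree, map_one, mul_one] at h1
    exact h1
  have hdetof : ∀ M : Matrix (Fin f.natDegree) (Fin f.natDegree) F, M.charpoly = f → M.det = 1 := by
    intro M hM
    rw [Matrix.det_eq_sign_charpoly_coeff, hM, hc0, Fintype.card_fin, hεε]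
  have hdetN := hdetof N hch
  let A₀ : GL (Fin f.natDegree) F :=
    Matrix.GeneralLinearGroup.mkOfDetNeZero N (by rw [hdetN]; exact one_ne_zero)
  obtain ⟨⟨e, he0⟩, -, he⟩ := FiniteField.card F p
  simp only [PNat.mk_coe] at he
  set A : GL (Fin f.natDegree) F := A₀ ^ (Fintype.card F ^ orderOf A₀) with hA
  have hcop : (orderOf A).Coprime p := by
    rw [hA, he, ← pow_mul]
    apply SpSS.coprime_orderOf_pow
    exact Nat.le_mul_of_pos_left _ he0
  have hAch : (A : Matrix (Fin f.natDegree) (Fin f.natDegree) F).charpoly = f := by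
    rw [hA, Units.val_pow_eq_pow_val, SpSS.charpoly_pow_card_pow]
    exact hch
  have hAr : (A : Matrix (Fin f.natDegree) (Fin f.natDegree) F) ^ orderOf A = 1 := by
    rw [← Units.val_pow_eq_pow_val, pow_orderOf_eq_one]
    rfl
  have hBr : ((((A : Matrix (Fin f.natDegree) (Fin f.natDegree) F).map σ)ᵀ)⁻¹) ^ orderOf A = 1 := by
    have h5 : ((A : Matrix (Fin f.natDegree) (Fin f.natDegree) F).map σ) =
      σ.mapMatrix (A : Matrix (Fin f.natDegree) (Fin f.natDegree) F) := rfl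
    rw [Matrix.inv_pow', ← Matrix.transpose_pow, h5, ← map_pow, hAr]
    simp
  have h4 : (A : Matrix (Fin f.natDegree) (Fin f.natDegree) F).charpoly =
      ((((A : Matrix (Fin f.natDegree) (Fin f.natDegree) F).map σ)ᵀ)⁻¹).charpoly := by
    rw [charpoly_dagger_inv' σ _ A.isUnit, hdetof _ hAch, hAch, map_one, inv_one, mul_one,
      Fintype.card_fin]
    exact hs
  obtain ⟨P, hP⟩ := exists_conj_of_charpoly_eq p hcop hcop hAr hBr h4
  have hσf : (fun x : F => x ^ q) = ⇑σ := rfl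
  obtain ⟨B, hB⟩ := (GU_similar_iff hF A).2 (by rw [hσf]; exact ⟨P, hP⟩)
  obtain ⟨c, hc⟩ := isConj_iff.1 hB
  have hBch : ((B : GL (Fin f.natDegree) F) : Matrix (Fin f.natDegree) (Fin f.natDegree) F).charpoly
      = f := by
    rw [← hc, Units.val_mul, Units.val_mul, Matrix.coe_units_inv, Matrix.charpoly_units_conj]
    exact hAch
  have hBo : orderOf B = orderOf A := by
    rw [← Subgroup.orderOf_coe, ← hc]
    exact (MulAut.conj c).orderOf_eq A
  have hBk : B ∈ (detGU f.natDegree F q).ker := by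
    rw [MonoidHom.mem_ker]
    apply Units.ext
    exact hdetof _ hBch
  rw [← range_suToGU] at hBk
  obtain ⟨s, hs'⟩ := hBk
  refine ⟨s, ?_, ?_⟩
  · rw [← orderOf_injective _ suToGU_injective, hs', hBo]
    exact hcop
  · refine Eq.trans ?_ hBch
    rw [← hs']
    rfl

/-- the middle coefficients of the characteristic polynomial -/
noncomputable def cf {m : ℕ} (s : ↥(Cfsg.SU (m + 1) F q)) : Fin m → F := fun j =>
  ((s : Matrix.SpecialLinearGroup (Fin (m + 1)) F) : Matrix (Fin (m + 1)) (Fin (m + 1)) F).charpoly.coeff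
    ((j : ℕ) + 1)

theorem revAt_succ {m : ℕ} (j : Fin m) : revAt (m + 1) ((j : ℕ) + 1) = ((Fin.rev j : Fin m) : ℕ) + 1 := by
  rw [revAt_le (by omega), Fin.val_rev]
  omega

theorem cf_fix (hF : Fintype.card F = q ^ 2) {m : ℕ} (s : ↥(Cfsg.SU (m + 1) F q)) :
    tw (frobQ hF) ((-1) ^ (m + 1)) m (cf s) = cf s := by
  funext j
  rw [tw_apply]
  have h1 := (isStar_iff_coeff (frobQ hF) (by
    rw [Matrix.charpoly_natDegree_eq_dim, Fintype.card_fin])).1 (su_charpoly_star hF s) ((j : ℕ) + 1)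
  rw [revAt_succ] at h1
  exact h1.symm

omit [Fintype F] in
theorem eq_of_coeff_succ {m : ℕ} {f f' : F[X]} (hm : f.Monic) (hm' : f'.Monic)
    (hn : f.natDegree = m + 1) (hn' : f'.natDegree = m + 1) (h0 : f.coeff 0 = f'.coeff 0)
    (h : ∀ j : Fin m, f.coeff ((j : ℕ) + 1) = f'.coeff ((j : ℕ) + 1)) : f = f' := by
  ext i
  rcases Nat.eq_zero_or_pos i with rfl | hi
  · exact h0
  rcases lt_trichotomy i (m + 1) with h1 | h1 | h1
  · have := h ⟨i - 1, by omega⟩
    simpa [Nat.sub_add_cancel hi] using this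
  · subst h1
    have e1 := hm.coeff_natDegree
    have e2 := hm'.coeff_natDegree
    rw [hn] at e1
    rw [hn'] at e2
    rw [e1, e2]
  · rw [coeff_eq_zero_of_natDegree_lt (by omega), coeff_eq_zero_of_natDegree_lt (by omega)]

theorem coeff_zero_of_star {K : Type*} [Field K] (σ : K →+* K) {n : ℕ} {f : K[X]} (hm : f.Monic)
    (hn : f.natDegree = n) (hs : IsStar σ n f) : f.coeff 0 = (-1) ^ n := by
  have h1 := (isStar_iff_coeff σ hn).1 hs 0
  rw [revAt_le (Nat.zero_le _), Nat.sub_zero, ← hn, hm.coeff_natDegree, map_one, mul_one] at h1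
  rw [← hn]
  exact h1

theorem charpoly_eq_of_cf_eq (hF : Fintype.card F = q ^ 2) {m : ℕ} {s s' : ↥(Cfsg.SU (m + 1) F q)}
    (h : cf s = cf s') :
    ((s : Matrix.SpecialLinearGroup (Fin (m + 1)) F) : Matrix (Fin (m + 1)) (Fin (m + 1)) F).charpoly =
    ((s' : Matrix.SpecialLinearGroup (Fin (m + 1)) F) : Matrix (Fin (m + 1)) (Fin (m + 1)) F).charpoly := by
  have hd : ∀ M : Matrix (Fin (m + 1)) (Fin (m + 1)) F, M.charpoly.natDegree = m + 1 := by
    intro M
    rw [Matrix.charpoly_natDegree_eq_dim, Fintype.card_fin]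
  apply eq_of_coeff_succ (Matrix.charpoly_monic _) (Matrix.charpoly_monic _) (hd _) (hd _)
  · rw [coeff_zero_of_star (frobQ hF) (Matrix.charpoly_monic _) (hd _) (su_charpoly_star hF s),
      coeff_zero_of_star (frobQ hF) (Matrix.charpoly_monic _) (hd _) (su_charpoly_star hF s')]
  · intro j
    exact congrFun h j

theorem exists_su_of_fix (hF : Fintype.card F = q ^ 2) (p : ℕ) [hp : Fact p.Prime] [CharP F p]
    {m : ℕ} (b : Fin m → F) (hb : tw (frobQ hF) ((-1) ^ (m + 1)) m b = b) :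
    ∃ s : ↥(Cfsg.SU (m + 1) F q), (orderOf s).Coprime p ∧ cf s = b := by
  set ε : F := (-1) ^ (m + 1) with hε
  have hεε : ε * ε = 1 := by rw [hε, ← mul_pow]; simp
  have hσε : frobQ hF ε = ε := by rw [hε, map_pow, map_neg, map_one]
  set f := monicOf (Fin.cons ε b : Fin (m + 1) → F) with hf
  have hm : f.Monic := monicOf_monic _
  have hn : f.natDegree = m + 1 := monicOf_natDegree _
  have c0 : f.coeff 0 = ε := by
    have := monicOf_coeff (Fin.cons ε b : Fin (m + 1) → F) 0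
    simpa using this
  have cs : ∀ j : Fin m, f.coeff ((j : ℕ) + 1) = b j := by
    intro j
    have := monicOf_coeff (Fin.cons ε b : Fin (m + 1) → F) j.succ
    simpa using this
  have ct : f.coeff (m + 1) = 1 := by
    have := hm.coeff_natDegree
    rwa [hn] at this
  have hstar : IsStar (frobQ hF) (m + 1) f := by
    rw [isStar_iff_coeff _ hn]
    intro i
    rcases Nat.eq_zero_or_pos i with rfl | hi
    · rw [revAt_le (Nat.zero_le _), Nat.sub_zero, ct, c0, map_one, mul_one]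
    rcases lt_trichotomy i (m + 1) with h1 | h1 | h1
    · obtain ⟨j, rfl⟩ : ∃ j : Fin m, i = (j : ℕ) + 1 := ⟨⟨i - 1, by omega⟩, by simp; omega⟩
      rw [revAt_succ, cs, cs]
      exact (congrFun hb j).symm
    · subst h1
      rw [revAt_le le_rfl, Nat.sub_self, ct, c0, hσε, hεε]
    · rw [revAt_eq_self_of_lt h1, coeff_eq_zero_of_natDegree_lt (by omega), map_zero, mul_zero]
  obtain ⟨s, hs, hsc⟩ := exists_su_of_star hF p f hm hn hstar
  refine ⟨s, hs, ?_⟩
  funext j
  unfold cf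
  rw [hsc, cs]

theorem su_charpoly_eq_of_isConj {n : ℕ} {g h : ↥(Cfsg.SU n F q)} (hgh : IsConj g h) :
    ((g : Matrix.SpecialLinearGroup (Fin n) F) : Matrix (Fin n) (Fin n) F).charpoly =
      ((h : Matrix.SpecialLinearGroup (Fin n) F) : Matrix (Fin n) (Fin n) F).charpoly := by
  obtain ⟨c, hc⟩ := isConj_iff.1 hgh
  have h1 := congrArg (fun x => ((suToGU n F q x : ↥(Cfsg.GU n F q)) : GL (Fin n) F)) hc
  simp only [map_mul, map_inv, Subgroup.coe_mul, Subgroup.coe_inv] at h1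
  have h2 := Matrix.charpoly_units_conj ((suToGU n F q c : ↥(Cfsg.GU n F q)) : GL (Fin n) F)
    ((g : Matrix.SpecialLinearGroup (Fin n) F) : Matrix (Fin n) (Fin n) F)
  rw [← h2]
  have h3 := congrArg (fun x : GL (Fin n) F => (x : Matrix (Fin n) (Fin n) F)) h1
  simp only [Units.val_mul, Matrix.coe_units_inv] at h3
  exact congrArg Matrix.charpoly h3

theorem su_card_classes (hF : Fintype.card F = q ^ 2) (p : ℕ) [Fact p.Prime] [CharP F p] (n : ℕ)
    (hn : 1 ≤ n) :
    Nat.card {c : ConjClasses ↥(Cfsg.SU n F q) //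
      ∃ g : ↥(Cfsg.SU n F q), ConjClasses.mk g = c ∧ (orderOf g).Coprime p} = q ^ (n - 1) := by
  obtain ⟨m, rfl⟩ : ∃ m, n = m + 1 := ⟨n - 1, by omega⟩
  rw [Nat.add_sub_cancel]
  obtain ⟨u, hu⟩ := (Cfsg.Agent.Lib.Helper94.U.stdB_hform (n := 1) hF).exists_not_fixed
  rw [← card_fix_tw hF (frobQ hF) (fun x => pow_q_pow_q hF x) u hu ((-1) ^ (m + 1))
    (by rw [map_pow, map_neg, map_one]) (by rw [← mul_pow]; simp) m]
  apply Nat.card_congr
  refine Equiv.ofBijective (fun c => ⟨cf c.2.choose, cf_fix hF _⟩) ⟨?_, ?_⟩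
  · intro c c' h
    have h1 : cf c.2.choose = cf c'.2.choose := congrArg Subtype.val h
    have h2 := charpoly_eq_of_cf_eq hF h1
    have h3 := su_conj hF p _ _ _ c.2.choose_spec.2 c'.2.choose_spec.2 h2
    apply Subtype.ext
    rw [← c.2.choose_spec.1, ← c'.2.choose_spec.1]
    exact ConjClasses.mk_eq_mk_iff_isConj.2 h3
  · rintro ⟨b, hb⟩
    obtain ⟨s, hs, hsb⟩ := exists_su_of_fix hF p b hb
    refine ⟨⟨ConjClasses.mk s, s, rfl, hs⟩, ?_⟩
    apply Subtype.ext
    simp only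
    rw [← hsb]
    have hx : ∃ g : ↥(Cfsg.SU (m + 1) F q), ConjClasses.mk g = ConjClasses.mk s ∧
      (orderOf g).Coprime p := ⟨s, rfl, hs⟩
    have h1 := ConjClasses.mk_eq_mk_iff_isConj.1 hx.choose_spec.1
    have h2 := su_charpoly_eq_of_isConj h1
    funext j
    unfold cf
    exact congrArg (fun f : F[X] => f.coeff ((j : ℕ) + 1)) h2

end Cfsg.Agent.Lib.Helper38.UIdem
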