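import Cfsg.Agent.Lib.Helper38.QSignB

set_option autoImplicit false

/-! The quadratic form `∑_{j ≤ i} w_i w_j` over `𝔽₂`: weight formula, sign. -/

namespace Cfsg.Agent.Lib.Helper38.SymOrth

open Matrix QuadraticMap Cfsg.Agent.Lib.Helper44 Cfsg.Agent.Lib.Helper43.PO
  Cfsg.Agent.Lib.Helper38.CycF Cfsg.Agent.Lib.Helper38.QCnt

/-- lower triangular matrix of ones -/
def triM (n : ℕ) : Matrix (Fin n) (Fin n) (ZMod 2) := Matrix.of fun i j => if j ≤ i then 1 else 0

/-- the form `∑_{j ≤ i} w_i w_j` -/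
noncomputable def triQ (n : ℕ) : QuadraticForm (ZMod 2) (Fin n → ZMod 2) := qfOf (triM n)

/-- coordinate sum -/
def sm {n : ℕ} (w : Fin n → ZMod 2) : ZMod 2 := ∑ i, w i

/-- weight -/
def wt {n : ℕ} (w : Fin n → ZMod 2) : ℕ := ∑ i, (w i).val

theorem sm_cons {n : ℕ} (a : ZMod 2) (w : Fin n → ZMod 2) :
    sm (Fin.cons a w : Fin (n + 1) → ZMod 2) = a + sm w := by
  simp [sm, Fin.sum_univ_succ]

theorem wt_cons {n : ℕ} (a : ZMod 2) (w : Fin n → ZMod 2) :
    wt (Fin.cons a w : Fin (n + 1) → ZMod 2) = a.val + wt w := by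
  simp [wt, Fin.sum_univ_succ]

theorem cast_wt {n : ℕ} (w : Fin n → ZMod 2) : ((wt w : ℕ) : ZMod 2) = sm w := by
  simp [wt, sm]

theorem triQ_apply {n : ℕ} (w : Fin n → ZMod 2) :
    triQ n w = ∑ i, ∑ j, if j ≤ i then w i * w j else 0 := by
  rw [triQ, qfOf_apply]
  simp only [dotProduct, mulVec, triM, Matrix.of_apply, Finset.mul_sum]
  apply Finset.sum_congr rfl
  intro i _
  apply Finset.sum_congr rfl
  intro j _
  split_ifs <;> simp

theorem triQ_cons {n : ℕ} (a : ZMod 2) (w : Fin n → ZMod 2) :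
    triQ (n + 1) (Fin.cons a w : Fin (n + 1) → ZMod 2) = a * a + a * sm w + triQ n w := by
  rw [triQ_apply, triQ_apply, Fin.sum_univ_succ]
  simp only [Fin.sum_univ_succ, Fin.cons_zero, Fin.cons_succ, Fin.succ_le_succ_iff, Fin.zero_le,
    if_true, Fin.le_zero_iff, Fin.succ_ne_zero, if_false, Finset.sum_const_zero, add_zero,
    Finset.sum_add_distrib]
  rw [sm, Finset.mul_sum, add_assoc]
  congr 2
  apply Finset.sum_congr rfl
  intro i _
  ring

theorem zmod2_cases (a : ZMod 2) : a = 0 ∨ a = 1 := by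
  revert a; decide

theorem half_succ (t : ℕ) : (((t + 1 + 1) / 2 : ℕ) : ZMod 2) = 1 + (t : ZMod 2) + (((t + 1) / 2 : ℕ) : ZMod 2) := by
  have h2 : (2 : ZMod 2) = 0 := by decide
  rcases Nat.even_or_odd' t with ⟨a, rfl | rfl⟩
  · have e1 : (2 * a + 1 + 1) / 2 = a + 1 := by omega
    have e2 : (2 * a + 1) / 2 = a := by omega
    rw [e1, e2]
    push_cast
    linear_combination (-(a : ZMod 2)) * h2
  · have e1 : (2 * a + 1 + 1 + 1) / 2 = a + 1 := by omega
    have e2 : (2 * a + 1 + 1) / 2 = a + 1 := by omega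
    rw [e1, e2]
    push_cast
    linear_combination (-(a : ZMod 2) - 1) * h2

/-- the value of the form in terms of the weight -/
theorem triQ_eq_wt {n : ℕ} (w : Fin n → ZMod 2) : triQ n w = (((wt w + 1) / 2 : ℕ) : ZMod 2) := by
  induction n with
  | zero =>
    rw [triQ_apply]
    simp [wt]
  | succ n ih =>
    rw [← Fin.cons_self_tail w, triQ_cons, wt_cons, ih]
    rcases zmod2_cases (w 0) with h | h
    · rw [h]
      simp
    · rw [h]
      have e : (1 : ZMod 2).val = 1 := rfl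
      rw [e, add_comm 1 (wt (Fin.tail w)), half_succ, cast_wt]
      ring

/-- the sign character of `𝔽₂` -/
def chi (a : ZMod 2) : ℤ := if a = 0 then 1 else -1

theorem chi_add_one (a : ZMod 2) : chi (1 + a) = - chi a := by
  revert a; decide

theorem sum_cons {n : ℕ} (f : (Fin (n + 1) → ZMod 2) → ℤ) :
    ∑ v, f v = ∑ w : Fin n → ZMod 2, (f (Fin.cons 0 w) + f (Fin.cons 1 w)) := by
  rw [← (Fin.consEquiv (fun _ : Fin (n + 1) => ZMod 2)).sum_comp, Fintype.sum_prod_type]
  have h : (Finset.univ : Finset (ZMod 2)) = {0, 1} := by decide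
  rw [h, Finset.sum_pair (by decide), ← Finset.sum_add_distrib]
  rfl

/-- character sums -/
noncomputable def sU (n : ℕ) : ℤ := ∑ w : Fin n → ZMod 2, chi (triQ n w)

noncomputable def sU' (n : ℕ) : ℤ := ∑ w : Fin n → ZMod 2, chi (triQ n w + sm w)

theorem sU_succ (n : ℕ) : sU (n + 1) = sU n - sU' n := by
  rw [sU, sU, sU', sum_cons, ← Finset.sum_sub_distrib]
  apply Finset.sum_congr rfl
  intro w _
  rw [triQ_cons, triQ_cons]
  have e1 : (0 : ZMod 2) * 0 + 0 * sm w + triQ n w = triQ n w := by ring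
  have e2 : (1 : ZMod 2) * 1 + 1 * sm w + triQ n w = 1 + (triQ n w + sm w) := by ring
  rw [e1, e2, chi_add_one]
  ring

theorem sU'_succ (n : ℕ) : sU' (n + 1) = sU n + sU' n := by
  rw [sU, sU', sU', sum_cons, ← Finset.sum_add_distrib]
  apply Finset.sum_congr rfl
  intro w _
  rw [triQ_cons, triQ_cons, sm_cons, sm_cons]
  have h2 : (2 : ZMod 2) = 0 := by decide
  have e1 : (0 : ZMod 2) * 0 + 0 * sm w + triQ n w + (0 + sm w) = triQ n w + sm w := by ring
  have e2 : (1 : ZMod 2) * 1 + 1 * sm w + triQ n w + (1 + sm w) = triQ n w := by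
    linear_combination (1 + sm w) * h2
  rw [e1, e2]
  ring

theorem sU_zero : sU 0 = 1 ∧ sU' 0 = 1 := by
  constructor
  · rw [sU]
    simp [triQ_apply, chi]
  · rw [sU']
    simp [triQ_apply, chi, sm]

theorem sU_four (k : ℕ) : sU (4 * k + 2) = -2 * (-4) ^ k ∧ sU' (4 * k + 2) = 2 * (-4) ^ k := by
  induction k with
  | zero =>
    have h := sU_zero
    constructor
    · rw [Nat.mul_zero, Nat.zero_add, sU_succ, sU_succ, sU'_succ, h.1, h.2]; norm_num
    · rw [Nat.mul_zero, Nat.zero_add, sU'_succ, sU_succ, sU'_succ, h.1, h.2]; norm_num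
  | succ k ih =>
    have e : 4 * (k + 1) + 2 = (4 * k + 2) + 1 + 1 + 1 + 1 := by ring
    rw [e]
    obtain ⟨h1, h2⟩ := ih
    generalize 4 * k + 2 = m at h1 h2 ⊢
    simp only [sU_succ, sU'_succ, h1, h2]
    constructor <;> ring

theorem exc_triQ (n : ℕ) : exc ⇑(triQ n) = sU n := by
  classical
  rw [sU]
  unfold chi
  rw [Finset.sum_ite, Finset.sum_const, Finset.sum_const, card_filter_eq_cnt, card_filter_ne_cnt]
  unfold exc
  have h := cnt_zero_le (F := ZMod 2) ⇑(triQ n) 0
  simp only [ZMod.card, Fintype.card_fin] at h ⊢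
  rw [nsmul_eq_mul, nsmul_eq_mul, Nat.cast_sub h]
  push_cast
  ring

theorem triQ_nondeg {n : ℕ} (hn : Even n) : (polarBilin (triQ n)).Nondegenerate := by
  apply nondeg_of_sep
  intro x hx
  have h2 : (2 : ZMod 2) = 0 := by decide
  have h1 : ∀ j, x j = sm x := by
    intro j
    have h3 := hx (Pi.single j 1)
    rw [triQ, qfOf_polar, Matrix.mulVec_single_one] at h3
    have h4 : x ⬝ᵥ (triM n + (triM n)ᵀ).col j = sm x + x j := by
      simp only [dotProduct, Matrix.col_apply, Matrix.add_apply, Matrix.transpose_apply, triM,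
        Matrix.of_apply]
      have h5 : ∀ i : Fin n, x i * ((if j ≤ i then (1 : ZMod 2) else 0) + (if i ≤ j then 1 else 0))
          = x i + (if i = j then x i else 0) := by
        intro i
        rcases lt_trichotomy i j with h | h | h
        · rw [if_neg (not_le.2 h), if_pos h.le, if_neg h.ne]; ring
        · subst h
          simp only [le_refl, if_true]
          ring
        · rw [if_pos h.le, if_neg (not_le.2 h), if_neg h.ne']; ring
      rw [Finset.sum_congr rfl (fun i _ => h5 i), Finset.sum_add_distrib, Finset.sum_ite_eq' ]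
      simp [sm]
    rw [h4] at h3
    linear_combination h3 - (sm x) * h2
  have h6 : sm x = 0 := by
    have h7 : sm x = ∑ _j : Fin n, sm x := by
      conv_lhs => rw [sm]
      exact Finset.sum_congr rfl (fun j _ => h1 j)
    rw [Finset.sum_const, Finset.card_univ, Fintype.card_fin, nsmul_eq_mul] at h7
    obtain ⟨c, rfl⟩ := hn
    rw [h7]
    push_cast
    linear_combination (c : ZMod 2) * (sm x) * h2
  funext j
  rw [h1 j, h6]
  rfl

end Cfsg.Agent.Lib.Helper38.SymOrth
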