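import Cfsg.Agent.Lib.Helper38.SymOrthA

set_option autoImplicit false

/-! The action of the symmetric group of degree `N + 2` on the even-weight vectors modulo the
all-one vector, in coordinates. -/

namespace Cfsg.Agent.Lib.Helper38.SymOrth

open Matrix QuadraticMap

/-- `w ↦ (0, ∑ w, w)` -/
def inc (N : ℕ) : (Fin N → ZMod 2) →ₗ[ZMod 2] (Fin (N + 2) → ZMod 2) where
  toFun w := Fin.cons 0 (Fin.cons (sm w) w)
  map_add' := by
    intro u v
    funext x
    refine Fin.cases ?_ (fun y => Fin.cases ?_ (fun i => ?_) y) x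
    · simp
    · simp [sm, Finset.sum_add_distrib]
    · simp
  map_smul' := by
    intro c v
    funext x
    refine Fin.cases ?_ (fun y => Fin.cases ?_ (fun i => ?_) y) x
    · simp
    · simp [sm, Finset.mul_sum]
    · simp

theorem inc_apply {N : ℕ} (w : Fin N → ZMod 2) :
    inc N w = (Fin.cons 0 (Fin.cons (sm w) w : Fin (N + 1) → ZMod 2) : Fin (N + 2) → ZMod 2) := rfl

/-- `v ↦ (v_{i+2} + v_0)_i` -/
def prj (N : ℕ) : (Fin (N + 2) → ZMod 2) →ₗ[ZMod 2] (Fin N → ZMod 2) where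
  toFun v := fun i => v i.succ.succ + v 0
  map_add' := by
    intro u v
    funext i
    simp only [Pi.add_apply]
    ring
  map_smul' := by
    intro c v
    funext i
    simp only [Pi.smul_apply, smul_eq_mul, RingHom.id_apply]
    ring

theorem prj_apply {N : ℕ} (v : Fin (N + 2) → ZMod 2) (i : Fin N) :
    prj N v i = v i.succ.succ + v 0 := rfl

/-- permutation of the coordinates -/
def prm {N : ℕ} (σ : Equiv.Perm (Fin (N + 2))) :
    (Fin (N + 2) → ZMod 2) →ₗ[ZMod 2] (Fin (N + 2) → ZMod 2) :=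
  LinearMap.funLeft (ZMod 2) (ZMod 2) (σ.symm : Fin (N + 2) → Fin (N + 2))

theorem prm_apply {N : ℕ} (σ : Equiv.Perm (Fin (N + 2))) (v : Fin (N + 2) → ZMod 2)
    (x : Fin (N + 2)) : prm σ v x = v (σ.symm x) := rfl

/-- the all-one vector -/
def one1 (N : ℕ) : Fin (N + 2) → ZMod 2 := fun _ => 1

theorem prj_inc {N : ℕ} (w : Fin N → ZMod 2) : prj N (inc N w) = w := by
  funext i
  rw [prj_apply, inc_apply]
  simp

theorem sm_inc {N : ℕ} (w : Fin N → ZMod 2) : sm (inc N w) = 0 := by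
  rw [inc_apply, sm_cons, sm_cons]
  have h2 : (2 : ZMod 2) = 0 := by decide
  linear_combination (sm w) * h2

theorem sm_prm {N : ℕ} (σ : Equiv.Perm (Fin (N + 2))) (v : Fin (N + 2) → ZMod 2) :
    sm (prm σ v) = sm v := by
  unfold sm
  exact Equiv.sum_comp σ.symm v

theorem wt_prm {N : ℕ} (σ : Equiv.Perm (Fin (N + 2))) (v : Fin (N + 2) → ZMod 2) :
    wt (prm σ v) = wt v := by
  unfold wt
  exact Equiv.sum_comp σ.symm (fun x => (v x).val)

theorem prj_one1 (N : ℕ) : prj N (one1 N) = 0 := by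
  funext i
  rw [prj_apply]
  show (1 : ZMod 2) + 1 = 0
  decide

theorem prm_one1 {N : ℕ} (σ : Equiv.Perm (Fin (N + 2))) : prm σ (one1 N) = one1 N := rfl

theorem inc_prj {N : ℕ} (hN : Even N) (v : Fin (N + 2) → ZMod 2) (hv : sm v = 0) :
    inc N (prj N v) = v + v 0 • one1 N := by
  have h2 : (2 : ZMod 2) = 0 := by decide
  funext x
  rw [inc_apply]
  refine Fin.cases ?_ (fun y => Fin.cases ?_ (fun i => ?_) y) x
  · simp only [Fin.cons_zero, Pi.add_apply, Pi.smul_apply, one1, smul_eq_mul, mul_one]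
    linear_combination (-(v 0)) * h2
  · simp only [Fin.cons_succ, Fin.cons_zero, Pi.add_apply, Pi.smul_apply, one1, smul_eq_mul, mul_one]
    have h3 : sm (prj N v) = (∑ i : Fin N, v i.succ.succ) + (N : ZMod 2) * v 0 := by
      unfold sm
      simp only [prj_apply, Finset.sum_add_distrib, Finset.sum_const, Finset.card_univ,
        Fintype.card_fin, nsmul_eq_mul]
    have h4 : sm v = v 0 + (v (Fin.succ 0) + ∑ i : Fin N, v i.succ.succ) := by
      unfold sm
      rw [Fin.sum_univ_succ, Fin.sum_univ_succ]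
    obtain ⟨c, rfl⟩ := hN
    rw [h3]
    rw [hv] at h4
    push_cast
    linear_combination (-1 : ZMod 2) * h4 + ((c : ZMod 2) * v 0 - v 0 - v (Fin.succ 0)) * h2
  · simp only [Fin.cons_succ, Pi.add_apply, Pi.smul_apply, one1, smul_eq_mul, mul_one, prj_apply]

/-- the action -/
def act {N : ℕ} (hN : Even N) :
    Equiv.Perm (Fin (N + 2)) →* Module.End (ZMod 2) (Fin N → ZMod 2) where
  toFun σ := prj N ∘ₗ prm σ ∘ₗ inc N
  map_one' := by
    apply LinearMap.ext
    intro w
    exact prj_inc w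
  map_mul' := by
    intro σ τ
    apply LinearMap.ext
    intro w
    show prj N (prm (σ * τ) (inc N w)) = prj N (prm σ (inc N (prj N (prm τ (inc N w)))))
    rw [inc_prj hN _ (by rw [sm_prm, sm_inc]), map_add, map_smul, prm_one1, map_add, map_smul,
      prj_one1, smul_zero, add_zero]
    rfl

theorem act_apply {N : ℕ} (hN : Even N) (σ : Equiv.Perm (Fin (N + 2))) (w : Fin N → ZMod 2) :
    act hN σ w = prj N (prm σ (inc N w)) := rfl

theorem inc_act {N : ℕ} (hN : Even N) (σ : Equiv.Perm (Fin (N + 2))) (w : Fin N → ZMod 2) :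
    inc N (act hN σ w) = prm σ (inc N w) + (prm σ (inc N w)) 0 • one1 N := by
  rw [act_apply, inc_prj hN _ (by rw [sm_prm, sm_inc])]

theorem wt_inc {N : ℕ} (w : Fin N → ZMod 2) : wt (inc N w) = wt w % 2 + wt w := by
  rw [inc_apply, wt_cons, wt_cons, ← cast_wt, ZMod.val_natCast]
  simp

theorem triQ_eq_inc {N : ℕ} (w : Fin N → ZMod 2) :
    triQ N w = ((wt (inc N w) / 2 : ℕ) : ZMod 2) := by
  rw [triQ_eq_wt, wt_inc]
  congr 1
  omega

theorem wt_add_one1 {N : ℕ} (v : Fin (N + 2) → ZMod 2) : wt (v + one1 N) + wt v = N + 2 := by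
  unfold wt
  rw [← Finset.sum_add_distrib]
  have h : ∀ a : ZMod 2, (a + 1).val + a.val = 1 := by decide
  simp only [Pi.add_apply, one1, h, Finset.sum_const, Finset.card_univ, Fintype.card_fin,
    smul_eq_mul, mul_one]

theorem even_wt {N : ℕ} (v : Fin (N + 2) → ZMod 2) (hv : sm v = 0) : 2 ∣ wt v := by
  rw [← ZMod.natCast_eq_zero_iff, cast_wt, hv]

theorem half_wt_add {N : ℕ} (h4 : 4 ∣ N + 2) (v : Fin (N + 2) → ZMod 2) (hv : sm v = 0)
    (c : ZMod 2) : ((wt (v + c • one1 N) / 2 : ℕ) : ZMod 2) = ((wt v / 2 : ℕ) : ZMod 2) := by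
  rcases zmod2_cases c with rfl | rfl
  · simp
  · rw [one_smul]
    obtain ⟨a, ha⟩ := even_wt v hv
    obtain ⟨b, hb⟩ := h4
    have h1 := wt_add_one1 v
    have h2 : wt (v + one1 N) / 2 + a = 2 * b := by omega
    have h3 : wt v / 2 = a := by omega
    rw [h3]
    have h5 := congrArg (fun z : ℕ => (z : ZMod 2)) h2
    simp only [Nat.cast_add, Nat.cast_mul, Nat.cast_ofNat] at h5
    have h6 : (2 : ZMod 2) = 0 := by decide
    linear_combination h5 + ((b : ZMod 2) - (a : ZMod 2)) * h6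

/-- the action preserves the form -/
theorem triQ_act {N : ℕ} (hN : Even N) (h4 : 4 ∣ N + 2) (σ : Equiv.Perm (Fin (N + 2)))
    (w : Fin N → ZMod 2) : triQ N (act hN σ w) = triQ N w := by
  rw [triQ_eq_inc, inc_act, half_wt_add h4 _ (by rw [sm_prm, sm_inc]), wt_prm, ← triQ_eq_inc]

end Cfsg.Agent.Lib.Helper38.SymOrth
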