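import Cfsg.Agent.Lib.Helper38.SymOrthB

set_option autoImplicit false

/-! The embedding of the symmetric group of degree `4k+4` in `O^±_{4k+2}(2)`. -/

namespace Cfsg.Agent.Lib.Helper38.SymOrth

open Matrix QuadraticMap Cfsg.Agent.Lib.Helper44 Cfsg.Agent.Lib.Helper43.PO
  Cfsg.Agent.Lib.Helper38.CycF Cfsg.Agent.Lib.Helper38.QCnt

theorem wt_single {N : ℕ} (i : Fin N) : wt (Pi.single i 1 : Fin N → ZMod 2) = 1 := by
  unfold wt
  have h : ∀ j : Fin N, ((Pi.single i 1 : Fin N → ZMod 2) j).val = if j = i then 1 else 0 := by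
    intro j
    by_cases hj : j = i
    · subst hj
      simp
      rfl
    · simp [hj]
  simp [h]

theorem sm_single {N : ℕ} (i : Fin N) : sm (Pi.single i 1 : Fin N → ZMod 2) = 1 := by
  rw [← cast_wt, wt_single]
  rfl

theorem act_injective {N : ℕ} (hN : Even N) (hN3 : 3 ≤ N) : Function.Injective (act hN) := by
  rw [injective_iff_map_eq_one]
  intro σ hσ
  have h1 : ∀ i : Fin N, prm σ (inc N (Pi.single i 1)) = inc N (Pi.single i 1) := by
    intro i
    have h2 := inc_act hN σ (Pi.single i 1)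
    rw [hσ] at h2
    rcases zmod2_cases ((prm σ (inc N (Pi.single i 1))) 0) with h | h
    · rw [h, zero_smul, add_zero] at h2
      exact h2.symm
    · exfalso
      rw [h, one_smul] at h2
      have h3 := wt_add_one1 (prm σ (inc N (Pi.single i 1)))
      rw [← h2, wt_prm] at h3
      have h4 : wt (inc N (Pi.single i 1)) = 2 := by rw [wt_inc, wt_single]
      have h5 : wt (inc N ((1 : Module.End (ZMod 2) (Fin N → ZMod 2)) (Pi.single i 1))) = 2 := h4
      omega
  have v0 : ∀ i : Fin N, inc N (Pi.single i 1) 0 = 0 := fun i => rfl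
  have v1 : ∀ i : Fin N, inc N (Pi.single i 1) (Fin.succ 0) = 1 := by
    intro i
    rw [inc_apply, Fin.cons_succ, Fin.cons_zero, sm_single]
  have v2 : ∀ i j : Fin N, inc N (Pi.single i 1) j.succ.succ = if j = i then 1 else 0 := by
    intro i j
    rw [inc_apply, Fin.cons_succ, Fin.cons_succ, Pi.single_apply]
  have h2 : ∀ (i : Fin N) (x : Fin (N + 2)),
      inc N (Pi.single i 1) (σ.symm x) = inc N (Pi.single i 1) x := by
    intro i x
    exact congrFun (h1 i) x
  have hne : (0 : ZMod 2) ≠ 1 := by decide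
  have i0 : Fin N := ⟨0, by omega⟩
  have hA : σ.symm (Fin.succ 0) = Fin.succ 0 := by
    rcases Fin.eq_zero_or_eq_succ (σ.symm (Fin.succ 0)) with h | ⟨y, h⟩
    · have := h2 i0 (Fin.succ 0)
      rw [h, v0, v1] at this
      exact absurd this hne
    · rcases Fin.eq_zero_or_eq_succ y with hy | ⟨j, hy⟩
      · rw [h, hy]
      · exfalso
        obtain ⟨i, hi⟩ : ∃ i : Fin N, j ≠ i := by
          by_cases hj : j = ⟨0, by omega⟩
          · exact ⟨⟨1, by omega⟩, by rw [hj]; intro h; simpa using congrArg Fin.val h⟩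
          · exact ⟨_, hj⟩
        have := h2 i (Fin.succ 0)
        rw [h, hy, v2, v1, if_neg hi] at this
        exact hne this
  have hB : ∀ i : Fin N, σ.symm i.succ.succ = i.succ.succ := by
    intro i
    rcases Fin.eq_zero_or_eq_succ (σ.symm i.succ.succ) with h | ⟨y, h⟩
    · have := h2 i i.succ.succ
      rw [h, v0, v2, if_pos rfl] at this
      exact absurd this hne
    · rcases Fin.eq_zero_or_eq_succ y with hy | ⟨j, hy⟩
      · exfalso
        rw [hy, ← hA] at h
        have h3 := σ.symm.injective h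
        exact Fin.succ_ne_zero i (Fin.succ_injective _ h3)
      · have := h2 i i.succ.succ
        rw [h, hy, v2, v2, if_pos rfl] at this
        by_cases hji : j = i
        · rw [h, hy, hji]
        · rw [if_neg hji] at this
          exact absurd this hne
  have hC : σ.symm 0 = 0 := by
    rcases Fin.eq_zero_or_eq_succ (σ.symm 0) with h | ⟨y, h⟩
    · exact h
    · exfalso
      rcases Fin.eq_zero_or_eq_succ y with hy | ⟨j, hy⟩
      · rw [hy, ← hA] at h
        exact (Fin.succ_ne_zero _) (σ.symm.injective h).symm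
      · rw [hy, ← hB j] at h
        exact (Fin.succ_ne_zero _) (σ.symm.injective h).symm
  have hτ : σ.symm = 1 := by
    apply Equiv.ext
    intro x
    refine Fin.cases ?_ (fun y => Fin.cases ?_ (fun i => ?_) y) x
    · exact hC
    · exact hA
    · exact hB i
  have : σ⁻¹ = 1 := hτ
  exact inv_eq_one.1 this

theorem exists_hom_of_isoM {G : Type*} [Group G] {F : Type*} [Field F] {ι κ : Type} [Fintype ι]
    [DecidableEq ι] [Fintype κ] [DecidableEq κ]
    (P : QuadraticForm F (ι → F)) (Q : QuadraticForm F (κ → F)) (h : IsoM P Q)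
    (T : G →* Module.End F (ι → F)) (hT : ∀ g w, P (T g w) = P w) (hinj : Function.Injective T) :
    ∃ φ : G →* ↥(Cfsg.isometryGroup F ⇑Q), Function.Injective φ := by
  obtain ⟨A, B, h1, h2, h3⟩ := h
  let L : (ι → F) ≃ₗ[F] (κ → F) := Matrix.toLin'OfInv h1 h2
  have hL : ∀ v, Q (L v) = P v := by
    intro v
    have e : L v = B *ᵥ v := rfl
    rw [e, ← h3, Matrix.mulVec_mulVec, h1, Matrix.one_mulVec]
  let E : Module.End F (ι → F) ≃ₐ[F] Matrix κ κ F :=
    (L.conjAlgEquiv F).trans (Matrix.toLinAlgEquiv' (R := F) (n := κ)).symm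
  have hE : ∀ (X : Module.End F (ι → F)) (w : κ → F), E X *ᵥ w = L (X (L.symm w)) := by
    intro X w
    have h1 : Matrix.toLinAlgEquiv' (E X) = L.conjAlgEquiv F X := by
      simp [E]
    have h2 := congrArg (fun f : (κ → F) →ₗ[F] (κ → F) => f w) h1
    simpa [LinearEquiv.conjAlgEquiv_apply] using h2
  let φ₀ : G →* Matrix κ κ F := (E : Module.End F (ι → F) →* Matrix κ κ F).comp T
  let φ₁ : G →* GL κ F := φ₀.toHomUnits
  refine ⟨φ₁.codRestrict _ (fun g => ?_), ?_⟩
  · rw [mem_isometryGroup]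
    intro w
    show Q (E (T g) *ᵥ w) = Q w
    rw [hE, hL, hT, ← hL, L.apply_symm_apply]
  · intro g g' hgg'
    apply hinj
    apply E.injective
    have := congrArg (fun x : ↥(Cfsg.isometryGroup F ⇑Q) => ((x : GL κ F) : Matrix κ κ F)) hgg'
    exact this

theorem main (k : ℕ) (hk : 1 ≤ k) :
    (Odd k → ∃ φ : Equiv.Perm (Fin (4 * k + 2 + 2)) →*
      ↥(Cfsg.isometryGroup (ZMod 2) ⇑(plusQF (2 * k + 1) (ZMod 2))), Function.Injective φ) ∧
    (Even k → ∃ φ : Equiv.Perm (Fin (4 * k + 2 + 2)) →*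
      ↥(Cfsg.isometryGroup (ZMod 2) ⇑(minusQF (2 * k) (ZMod 2) 1 1)), Function.Injective φ) := by
  have hN : Even (4 * k + 2) := ⟨2 * k + 1, by ring⟩
  have h4 : 4 ∣ 4 * k + 2 + 2 := ⟨k + 1, by ring⟩
  have hι : Fintype.card (Fin (4 * k + 2)) = 2 * (2 * k + 1) := by
    rw [Fintype.card_fin]; ring
  have hnd := triQ_nondeg hN
  have hexc : exc ⇑(triQ (4 * k + 2)) = -2 * (-4) ^ k := by
    rw [exc_triQ, (sU_four k).1]
  constructor
  · intro hodd
    have h1 : ((-4 : ℤ)) ^ k < 0 := hodd.pow_neg (by norm_num)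
    have hiso := isoM_plus_of_pos hι (triQ (4 * k + 2)) hnd (by rw [hexc]; linarith)
    exact exists_hom_of_isoM _ _ hiso (act hN) (triQ_act hN h4) (act_injective hN (by omega))
  · intro heven
    have h1 : 0 < ((-4 : ℤ)) ^ k := heven.pow_pos (by norm_num)
    have hiso := isoM_minus_of_neg hι (triQ (4 * k + 2)) hnd (by rw [hexc]; linarith)
      (a := 1) (b := 1) (by decide)
    exact exists_hom_of_isoM _ _ hiso (act hN) (triQ_act hN h4) (act_injective hN (by omega))

end Cfsg.Agent.Lib.Helper38.SymOrth
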