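import Mathlib

set_option autoImplicit false

/-!
# Simple invariant subspaces of a semisimple endomorphism
-/

namespace Cfsg.Agent.Lib.Helper38.UIdem

open Module Polynomial

variable {K V : Type*} [Field K] [AddCommGroup V] [Module K V]

/-- `U` is a simple invariant subspace for `f`. -/
def Smp (f : Module.End K V) (U : Submodule K V) : Prop :=
  ∃ hU : U ∈ f.invtSubmodule, IsSimpleModule K[X] (Module.AEval.mapSubmodule K V f ⟨U, hU⟩)

theorem Smp.inv {f : Module.End K V} {U : Submodule K V} (h : Smp f U) : U ∈ f.invtSubmodule := h.1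

theorem Smp.ne_bot {f : Module.End K V} {U : Submodule K V} (h : Smp f U) : U ≠ ⊥ := by
  obtain ⟨hU, hs⟩ := h
  rintro rfl
  have h1 := (isSimpleModule_iff_isAtom.1 hs).1
  apply h1
  rw [eq_bot_iff]
  intro m hm
  rw [Module.AEval.mem_mapSubmodule_apply] at hm
  have h2 : (Module.AEval.of K V f).symm m = 0 := by simpa using hm
  simpa using h2

theorem Smp.disjoint {f : Module.End K V} {U N : Submodule K V} (h : Smp f U)
    (hN : N ∈ f.invtSubmodule) (hUN : ¬ U ≤ N) : Disjoint U N := by
  obtain ⟨hU, hs⟩ := h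
  have h1 := isSimpleModule_iff_isAtom.1 hs
  have h2 : ¬ (Module.AEval.mapSubmodule K V f ⟨U, hU⟩ ≤ Module.AEval.mapSubmodule K V f ⟨N, hN⟩) := by
    intro h3
    exact hUN ((Module.AEval.mapSubmodule K V f).le_iff_le.1 h3)
  have h3 := h1.not_le_iff_disjoint.1 h2
  rw [Submodule.disjoint_def] at h3 ⊢
  intro x hx hx'
  have := h3 (Module.AEval.of K V f x) (by simpa using hx) (by simpa using hx')
  simpa using this

theorem exists_smp_not_le {f : Module.End K V} (hf : f.IsSemisimple) {N : Submodule K V}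
    (hN : N ∈ f.invtSubmodule) (hne : N ≠ ⊤) : ∃ U, Smp f U ∧ ¬ U ≤ N := by
  have hss : IsSemisimpleModule K[X] (Module.AEval' f) := hf
  by_contra hcon
  push Not at hcon
  apply hne
  have h1 := IsSemisimpleModule.sSup_simples_eq_top K[X] (Module.AEval' f)
  have h2 : (⊤ : Submodule K[X] (Module.AEval' f)) ≤ Module.AEval.mapSubmodule K V f ⟨N, hN⟩ := by
    rw [← h1]
    apply sSup_le
    intro m hm
    have h3 : Smp f ((Module.AEval.mapSubmodule K V f).symm m : Submodule K V) := by
      refine ⟨((Module.AEval.mapSubmodule K V f).symm m).2, ?_⟩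
      have h5 : Module.AEval.mapSubmodule K V f
          ⟨((Module.AEval.mapSubmodule K V f).symm m : Submodule K V),
          ((Module.AEval.mapSubmodule K V f).symm m).2⟩ = m :=
        (Module.AEval.mapSubmodule K V f).apply_symm_apply m
      rw [h5]
      exact hm
    have h4 := hcon _ h3
    intro x hx
    rw [Module.AEval.mem_mapSubmodule_apply]
    apply h4
    rw [Module.AEval.mem_mapSubmodule_symm_apply]
    simpa using hx
  rw [eq_top_iff]
  intro x _
  have := h2 (Submodule.mem_top (x := Module.AEval.of K V f x))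
  simpa using this

theorem exists_smp [Nontrivial V] {f : Module.End K V} (hf : f.IsSemisimple) : ∃ U, Smp f U := by
  obtain ⟨U, hU, -⟩ := exists_smp_not_le hf (N := ⊥) (Module.End.invtSubmodule.bot_mem f) bot_ne_top
  exact ⟨U, hU⟩

/-- determinants of polynomial modifications on a simple summand -/
theorem Smp.exists_det [Finite K] [FiniteDimensional K V] {f : Module.End K V} {U W : Submodule K V}
    (h : Smp f U) (hUW : IsCompl U W) (δ : K) :
    ∃ φ : K[X], LinearMap.det (aeval f φ * U.projection W hUW + (1 - U.projection W hUW)) = δ := by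
  obtain ⟨hU, hs⟩ := h
  obtain ⟨I, hI, ⟨θ⟩⟩ := isSimpleModule_iff_quot_maximal.mp hs
  let _ : Field (K[X] ⧸ I) := Ideal.Quotient.field I
  let e₁ := Module.AEval.equiv_mapSubmodule f U hU
  let e : U ≃ₗ[K] (K[X] ⧸ I) := e₁.trans (θ.restrictScalars K)
  have hfinE : Module.Finite K (K[X] ⧸ I) := Module.Finite.equiv e
  have hFinE : Finite (K[X] ⧸ I) := Module.finite_of_finite K
  obtain ⟨ε, hε⟩ := FiniteField.norm_surjective K (K[X] ⧸ I) δ
  obtain ⟨φ, rfl⟩ := Ideal.Quotient.mk_surjective ε
  refine ⟨φ, ?_⟩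
  have hinv : ∀ x ∈ U, aeval f φ x ∈ U := by
    intro x hx
    exact Polynomial.aeval_apply_smul_mem_of_le_comap' hx φ f hU
  let A : U →ₗ[K] U := (aeval f φ).restrict hinv
  let μ : (K[X] ⧸ I) →ₗ[K] (K[X] ⧸ I) := LinearMap.mulLeft K (Ideal.Quotient.mk I φ)
  have hdetμ : LinearMap.det μ = δ := by
    rw [← hε, Algebra.norm_apply]
    rfl
  have hA : A = (e.symm : (K[X] ⧸ I) →ₗ[K] U) ∘ₗ μ ∘ₗ (e : U →ₗ[K] (K[X] ⧸ I)) := by
    apply LinearMap.ext
    intro u
    simp only [LinearMap.comp_apply, LinearEquiv.coe_coe]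
    rw [LinearEquiv.eq_symm_apply]
    change θ (e₁ (A u)) = Ideal.Quotient.mk I φ * θ (e₁ u)
    have h1 : e₁ (A u) = φ • e₁ u := by
      apply Subtype.ext
      rfl
    rw [h1, map_smul]
    rfl
  have hdetA : LinearMap.det A = δ := by
    rw [hA, ← hdetμ]
    exact LinearMap.det_conj μ e.symm
  let Φ := Submodule.prodEquivOfIsCompl U W hUW
  have hX : aeval f φ * U.projection W hUW + (1 - U.projection W hUW) =
      (Φ : (U × W) →ₗ[K] V) ∘ₗ (A.prodMap LinearMap.id) ∘ₗ (Φ.symm : V →ₗ[K] (U × W)) := by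
    apply LinearMap.ext
    intro x
    obtain ⟨⟨u, w⟩, rfl⟩ := Φ.surjective x
    simp only [LinearMap.comp_apply, LinearEquiv.coe_coe, LinearEquiv.symm_apply_apply]
    simp only [Φ, Submodule.coe_prodEquivOfIsCompl', LinearMap.prodMap_apply, LinearMap.id_apply,
      LinearMap.add_apply, LinearMap.sub_apply, Module.End.mul_apply, Module.End.one_apply, map_add,
      Submodule.projection_apply_left, Submodule.projection_apply_right]
    simp only [A, LinearMap.coe_restrict_apply, map_zero]
    abel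
  rw [hX, LinearMap.det_conj, LinearMap.det_prodMap, LinearMap.det_id, mul_one, hdetA]

end Cfsg.Agent.Lib.Helper38.UIdem
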