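import Cfsg.Agent.Lib.Helper38.UnitaryIdemA
import Cfsg.Agent.Lib.Helper94.HermDim

set_option autoImplicit false

/-!
# A normal idempotent in the commutant of a semisimple isometry of a hermitian space
-/

namespace Cfsg.Agent.Lib.Helper38.UIdem

open Module Polynomial Cfsg.Agent.Lib.Helper94.U

variable {K V : Type*} [Field K] [AddCommGroup V] [Module K V]
variable {σ : K →+* K} {B : V →ₛₗ[σ] V →ₗ[K] K}

theorem isom_pow {f : Module.End K V} (hf : ∀ x y, B (f x) (f y) = B x y) (j : ℕ) (x y : V) :
    B ((f ^ j) x) ((f ^ j) y) = B x y := by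
  induction j with
  | zero => simp
  | succ j ih => rw [pow_succ', Module.End.mul_apply, Module.End.mul_apply, hf, ih]

theorem pow_mem_of_inv {f : Module.End K V} {U : Submodule K V} (hU : U ∈ f.invtSubmodule) (j : ℕ)
    {x : V} (hx : x ∈ U) : (f ^ j) x ∈ U := by
  induction j with
  | zero => simpa using hx
  | succ j ih =>
    rw [pow_succ', Module.End.mul_apply]
    exact hU ih

theorem perp_inv {f : Module.End K V} (hf : ∀ x y, B (f x) (f y) = B x y) {k : ℕ}
    (hk : f ^ (k + 1) = 1) {U : Submodule K V} (hU : U ∈ f.invtSubmodule) :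
    perp B U ∈ f.invtSubmodule := by
  intro x hx u hu
  have h1 : B u (f x) = B ((f ^ k) u) ((f ^ k) (f x)) := (isom_pow hf k _ _).symm
  have h2 : (f ^ k) (f x) = x := by
    rw [← Module.End.mul_apply, ← pow_succ, hk, Module.End.one_apply]
  rw [h1, h2]
  exact hx _ (pow_mem_of_inv hU k hu)

theorem projection_commute {f : Module.End K V} {U W : Submodule K V} (hUW : IsCompl U W)
    (hU : U ∈ f.invtSubmodule) (hW : W ∈ f.invtSubmodule) : Commute (U.projection W hUW) f := by
  apply LinearMap.ext
  intro x
  rw [Module.End.mul_apply, Module.End.mul_apply]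
  have h1 : f x = f (U.projection W hUW x) + f (x - U.projection W hUW x) := by
    rw [← map_add]; congr 1; abel
  conv_lhs => rw [h1]
  rw [map_add, Submodule.projection_apply_of_mem_left hUW (hU (Submodule.projection_apply_mem hUW x)),
    (Submodule.projection_apply_eq_zero_iff hUW).2 (hW (Submodule.sub_projection_mem hUW x)), add_zero]

theorem exists_idem [Finite K] [FiniteDimensional K V] [Nontrivial V] (H : HForm σ B)
    {f : Module.End K V} (hf : ∀ x y, B (f x) (f y) = B x y) {k : ℕ} (hk : f ^ (k + 1) = 1)
    (hss : f.IsSemisimple) :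
    ∃ E E' : Module.End K V, Commute E f ∧ (∀ x y, B (E x) y = B x (E' y)) ∧ Commute E E' ∧
      ∀ δ : K, ∃ φ : K[X], LinearMap.det (aeval f φ * E + (1 - E)) = δ := by
  -- choice of the pair of simple submodules
  have hpair : ∃ U U' : Submodule K V, Smp f U ∧ Smp f U' ∧ ¬ U' ≤ perp B U ∧
      (U = U' ∨ (U ≤ perp B U ∧ U' ≤ perp B U')) := by
    by_cases h : ∃ U, Smp f U ∧ ¬ U ≤ perp B U
    · obtain ⟨U, hU, hU'⟩ := h
      exact ⟨U, U, hU, hU, hU', Or.inl rfl⟩
    · push Not at h
      obtain ⟨U, hU⟩ := exists_smp hss
      have hne : perp B U ≠ ⊤ := by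
        intro htop
        apply hU.ne_bot
        rw [eq_bot_iff]
        intro u hu
        rw [Submodule.mem_bot]
        apply H.nondeg
        intro y
        have : y ∈ perp B U := htop ▸ Submodule.mem_top
        exact this u hu
      obtain ⟨U', hU', hn⟩ := exists_smp_not_le hss (perp_inv hf hk hU.inv) hne
      exact ⟨U, U', hU, hU', hn, Or.inr ⟨h U hU, h U' hU'⟩⟩
  obtain ⟨U, U', hU, hU', hn, hcase⟩ := hpair
  have hn' : ¬ U ≤ perp B U' := by
    intro h
    apply hn
    intro u' hu' u hu
    exact H.eq_zero_comm.1 (h hu u' hu')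
  have d1 : Disjoint U' (perp B U) := hU'.disjoint (perp_inv hf hk hU.inv) hn
  have d2 : Disjoint U (perp B U') := hU.disjoint (perp_inv hf hk hU'.inv) hn'
  have f1 := finrank_perp H U
  have f2 := finrank_perp H U'
  have g1 : finrank K U' + finrank K (perp B U) ≤ finrank K V := by
    rw [← Submodule.finrank_sup_add_finrank_inf_eq, d1.eq_bot, finrank_bot, add_zero]
    exact Submodule.finrank_le _
  have g2 : finrank K U + finrank K (perp B U') ≤ finrank K V := by
    rw [← Submodule.finrank_sup_add_finrank_inf_eq, d2.eq_bot, finrank_bot, add_zero]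
    exact Submodule.finrank_le _
  have c1 : IsCompl U' (perp B U) :=
    ⟨d1, codisjoint_iff.2 (Submodule.eq_top_of_disjoint _ _ (by omega) d1)⟩
  have c2 : IsCompl U (perp B U') :=
    ⟨d2, codisjoint_iff.2 (Submodule.eq_top_of_disjoint _ _ (by omega) d2)⟩
  refine ⟨U.projection _ c2, U'.projection _ c1,
    projection_commute c2 hU.inv (perp_inv hf hk hU'.inv), ?_, ?_, fun δ => hU.exists_det c2 δ⟩
  · intro x y
    set E := U.projection _ c2
    set E' := U'.projection _ c1
    have h1 : B (E x) y = B (E x) (E' y) := by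
      have h2 : y = E' y + (y - E' y) := by abel
      conv_lhs => rw [h2]
      rw [map_add, (Submodule.sub_projection_mem c1 y) _ (Submodule.projection_apply_mem c2 x), add_zero]
    have h3 : B x (E' y) = B (E x) (E' y) := by
      have h2 : x = E x + (x - E x) := by abel
      conv_lhs => rw [h2]
      rw [map_add, LinearMap.add_apply,
        (mem_perp' H).1 (Submodule.sub_projection_mem c2 x) _ (Submodule.projection_apply_mem c1 y),
        add_zero]
    rw [h1, h3]
  · rcases hcase with rfl | ⟨t1, t2⟩
    · exact Commute.refl _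
    · have z1 : U.projection _ c2 * U'.projection _ c1 = 0 := by
        apply LinearMap.ext
        intro x
        rw [Module.End.mul_apply, LinearMap.zero_apply, Submodule.projection_apply_eq_zero_iff]
        exact t2 (Submodule.projection_apply_mem c1 x)
      have z2 : U'.projection _ c1 * U.projection _ c2 = 0 := by
        apply LinearMap.ext
        intro x
        rw [Module.End.mul_apply, LinearMap.zero_apply, Submodule.projection_apply_eq_zero_iff]
        exact t1 (Submodule.projection_apply_mem c2 x)
      exact z1.trans z2.symm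

end Cfsg.Agent.Lib.Helper38.UIdem
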