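import Cfsg.Agent.Lib.Helper38.UnitaryIdemB
import Cfsg.Agent.Lib.Helper94.HermStd
import Cfsg.Agent.Lib.Helper44.GUSim
import Cfsg.Agent.Lib.Helper43.SemisimpleDet

set_option autoImplicit false

/-!
# The determinant is onto on the centraliser of a semisimple unitary matrix
-/

namespace Cfsg.Agent.Lib.Helper38.UIdem

open Module Polynomial Matrix Cfsg.Agent.Lib.Helper94.U Cfsg.Agent.Lib.Helper44
open Cfsg.Agent.Lib.Helper13 (frobQ frobQ_apply pow_q_pow_q)

theorem unitary_of_normal {M : Type*} [Ring M] {d : M → M} (hd : IsDagger d) (X Y : M)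
    (hXY : d X * Y = 1) (hn : Commute X (d X)) : d (X * Y) * (X * Y) = 1 := by
  have h1 : d Y * X = 1 := by
    have := congrArg d hXY
    rwa [hd.mul, hd.invol, hd.one] at this
  calc d (X * Y) * (X * Y) = d Y * (d X * X) * Y := by rw [hd.mul]; simp only [mul_assoc]
    _ = d Y * (X * d X) * Y := by rw [hn.eq]
    _ = (d Y * X) * (d X * Y) := by simp only [mul_assoc]
    _ = 1 := by rw [h1, hXY, one_mul]

theorem commute_dagger {M : Type*} [Ring M] {d : M → M} (hd : IsDagger d) {G x : M}
    (h1 : d G * G = 1) (h2 : G * d G = 1) (hx : Commute x G) : Commute (d x) G := by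
  have h3 : d G * d x = d x * d G := by rw [← hd.mul, ← hd.mul, hx.eq]
  change d x * G = G * d x
  calc d x * G = (G * d G) * d x * G := by rw [h2, one_mul]
    _ = G * (d G * d x) * G := by simp only [mul_assoc]
    _ = G * (d x * d G) * G := by rw [h3]
    _ = G * d x * (d G * G) := by simp only [mul_assoc]
    _ = G * d x := by rw [h1, mul_one]

variable {K : Type*} [Field K] [Fintype K] {q n : ℕ}

theorem stdB_mulVec (hK : Fintype.card K = q ^ 2) (M : Matrix (Fin n) (Fin n) K) (x y : Fin n → K) :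
    stdB n hK x (M *ᵥ y) = stdB n hK (((M.map (frobQ hK))ᵀ) *ᵥ x) y := by
  rw [stdB_apply, stdB_apply]
  have hf : ∀ u v : Fin n → K, Cfsg.hermForm n K q u v = u ⬝ᵥ (frobQ hK ∘ v) := by
    intro u v
    rfl
  rw [hf, hf]
  have h1 : frobQ hK ∘ (((M.map (frobQ hK))ᵀ) *ᵥ x) = Mᵀ *ᵥ (frobQ hK ∘ x) := by
    funext i
    rw [Function.comp_apply, RingHom.map_mulVec]
    congr 1
    ext i j
    simp [pow_q_pow_q hK]
  rw [h1, Matrix.dotProduct_mulVec, Matrix.vecMul_transpose]

theorem exists_commuting_unitary (hK : Fintype.card K = q ^ 2) (hn : 1 ≤ n)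
    (G : Matrix (Fin n) (Fin n) K)
    (hG : ((G.map (frobQ hK))ᵀ) * G = 1) {k : ℕ} (hk : G ^ (k + 1) = 1) (hk0 : ((k + 1 : ℕ) : K) ≠ 0)
    (l : K) (hl : l ^ (q + 1) = 1) :
    ∃ c : Matrix (Fin n) (Fin n) K, ((c.map (frobQ hK))ᵀ) * c = 1 ∧ Commute c G ∧ c.det = l := by
  set σ := frobQ hK with hσdef
  have hσσ : ∀ x, σ (σ x) = x := fun x => pow_q_pow_q hK x
  have hd := isDagger_conjTranspose (n := Fin n) σ hσσ
  set d : Matrix (Fin n) (Fin n) K → Matrix (Fin n) (Fin n) K := fun X => (X.map σ)ᵀ with hddef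
  have hG1 : d G * G = 1 := hG
  have hG2 : G * d G = 1 := mul_eq_one_comm.1 hG1
  have hdet : ∀ X, (d X).det = σ X.det := by
    intro X
    rw [hddef]
    simp only
    rw [Matrix.det_transpose]
    exact (σ.map_det X).symm
  have : Nonempty (Fin n) := ⟨⟨0, hn⟩⟩
  let T := Matrix.toLinAlgEquiv' (R := K) (n := Fin n)
  have hT : ∀ (X : Matrix (Fin n) (Fin n) K) (x : Fin n → K), T X x = X *ᵥ x := fun X x => rfl
  have H := stdB_hform (n := n) hK
  have hf : ∀ x y, stdB n hK (T G x) (T G y) = stdB n hK x y := by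
    intro x y
    rw [hT, hT, stdB_mulVec, Matrix.mulVec_mulVec]
    change stdB n hK ((d G * G) *ᵥ x) y = _
    rw [hG1, Matrix.one_mulVec]
  have hTk : (T G) ^ (k + 1) = 1 := by rw [← map_pow, hk, map_one]
  have hss : Module.End.IsSemisimple (T G) :=
    Cfsg.Agent.Lib.Helper43.isSemisimple_of_pow_eq_one (T G) (k + 1) hk0 hTk
  obtain ⟨E, E', cE, hadj, cEE, hδ⟩ := exists_idem H hf hTk hss
  -- Hilbert 90
  obtain ⟨w, hw⟩ := H.exists_not_fixed
  have hdK : IsDagger (fun x : K => σ x) :=
    { add := fun x y => map_add σ x y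
      mul := fun x y => by rw [map_mul, mul_comm]
      one := map_one σ
      invol := hσσ }
  obtain ⟨z, hz, hzl⟩ := hilbert90_comm hdK w l
    (by
      have : w - σ w ≠ 0 := fun h => hw (sub_eq_zero.1 h).symm
      exact (mul_ne_zero this this).isUnit)
    (by
      change σ l * l = 1
      rw [hσdef, frobQ_apply, ← pow_succ, hl])
  have hz0 : z ≠ 0 := hz.ne_zero
  obtain ⟨φ, hφ⟩ := hδ z
  set Em := T.symm E with hEm
  set a := aeval G φ with ha
  set X := a * Em + (1 - Em) with hX
  have hTX : T X = aeval (T G) φ * E + (1 - E) := by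
    rw [hX, map_add, map_mul, map_sub, map_one, hEm, AlgEquiv.apply_symm_apply, ha]
    congr 2
    exact (Polynomial.aeval_algHom_apply T.toAlgHom G φ).symm
  have hXdet : X.det = z := by
    rw [← hφ, ← hTX]
    exact (LinearMap.det_toLin' X).symm
  -- the adjoint of `Em`
  have hdE : d Em = T.symm E' := by
    have h1 : Em = d (T.symm E') := by
      apply T.injective
      apply LinearMap.ext
      intro x
      have h2 : ∀ y, stdB n hK (T Em x - T (d (T.symm E')) x) y = 0 := by
        intro y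
        rw [map_sub, LinearMap.sub_apply, hEm, AlgEquiv.apply_symm_apply, hadj, hT (d _)]
        have h3 := stdB_mulVec hK (T.symm E') x y
        rw [← hT, AlgEquiv.apply_symm_apply] at h3
        rw [h3, sub_self]
      exact sub_eq_zero.1 (H.nondeg _ h2)
    rw [h1, hd.invol]
  have cEm : Commute Em G := by
    have : Commute (T Em) (T G) := by rw [hEm, AlgEquiv.apply_symm_apply]; exact cE
    exact T.injective (by rw [map_mul, map_mul]; exact this.eq)
  have cEmd : Commute Em (d Em) := by
    rw [hdE]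
    exact T.injective (by
      rw [map_mul, map_mul, hEm, AlgEquiv.apply_symm_apply, AlgEquiv.apply_symm_apply]; exact cEE.eq)
  have cpoly : ∀ x, Commute x G → Commute x a := fun x hx =>
    Algebra.commute_of_mem_adjoin_singleton_of_commute (R := K)
      (Polynomial.aeval_mem_adjoin_singleton K G) hx
  have caG : Commute a G := (cpoly G (Commute.refl G)).symm
  have cdaG : Commute (d a) G := commute_dagger hd hG1 hG2 caG
  have cdEG : Commute (d Em) G := commute_dagger hd hG1 hG2 cEm
  have c1 : Commute a (d a) := (cpoly _ cdaG).symm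
  have c2 : Commute a (d Em) := (cpoly _ cdEG).symm
  have c3 : Commute Em a := cpoly _ cEm
  have c4 : Commute Em (d a) := by
    have := congrArg d c2.eq
    rw [hd.mul, hd.mul, hd.invol] at this
    exact this
  have hdX : d X = d Em * d a + (1 - d Em) := by
    rw [hX, hd.add, hd.mul, hd.sub, hd.one]
  have cXG : Commute X G := (caG.mul_left cEm).add_left ((Commute.one_left G).sub_left cEm)
  have cdXG : Commute (d X) G := commute_dagger hd hG1 hG2 cXG
  have hnorm : Commute X (d X) := by
    rw [hdX]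
    have e1 : Commute a (d Em * d a + (1 - d Em)) :=
      (c2.mul_right c1).add_right ((Commute.one_right a).sub_right c2)
    have e2 : Commute Em (d Em * d a + (1 - d Em)) :=
      (cEmd.mul_right c4).add_right ((Commute.one_right Em).sub_right cEmd)
    exact (e1.mul_left e2).add_left ((Commute.one_left _).sub_left e2)
  have hdXdet : (d X).det = σ z := by rw [hdet, hXdet]
  have hσz : σ z ≠ 0 := by simpa using hz0
  have hunit : IsUnit (d X).det := by rw [hdXdet]; exact hσz.isUnit
  have hXY : d X * (d X)⁻¹ = 1 := Matrix.mul_nonsing_inv _ hunit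
  have hYX : (d X)⁻¹ * d X = 1 := Matrix.nonsing_inv_mul _ hunit
  refine ⟨X * (d X)⁻¹, unitary_of_normal hd X _ hXY hnorm, ?_, ?_⟩
  · apply cXG.mul_left
    change (d X)⁻¹ * G = G * (d X)⁻¹
    calc (d X)⁻¹ * G = (d X)⁻¹ * G * (d X * (d X)⁻¹) := by rw [hXY, mul_one]
      _ = (d X)⁻¹ * (G * d X) * (d X)⁻¹ := by simp only [mul_assoc]
      _ = (d X)⁻¹ * (d X * G) * (d X)⁻¹ := by rw [cdXG.eq]
      _ = ((d X)⁻¹ * d X) * G * (d X)⁻¹ := by simp only [mul_assoc]
      _ = G * (d X)⁻¹ := by rw [hYX, one_mul]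
  · rw [Matrix.det_mul, Matrix.det_nonsing_inv, hdXdet, hXdet, Ring.inverse_eq_inv']
    have hzl' : z = σ z * l := hzl
    field_simp
    exact hzl'

end Cfsg.Agent.Lib.Helper38.UIdem
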